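import Cfsg.Agent.H77.SgDefs2
import Cfsg.Agent.H51.SgKit
import Cfsg.Agent.H53.UwDefs

/-!
Project UV: overgroups of the normaliser of the unitary Singer cycle in `SU_11(q)`.
Definitions and the statements of the pieces.  Proofs: `stubs/notes/h74_uv.md`.
-/

set_option autoImplicit false

namespace Cfsg.Agent.H74.UV

open Cfsg Module Cfsg.Agent.H31 Cfsg.Agent.H77.Sg
open Cfsg.Agent.H53.Uw (St fx Sk)

universe u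

/-- The `m`-th roots of unity. -/
abbrev Rt (K : Type u) [Field K] (m : ℕ) : Subgroup Kˣ := (powMonoidHom m : Kˣ →* Kˣ).ker

/-- The linear characters of the scalars of norm one. -/
abbrev Ch (K : Type u) [Field K] (q : ℕ) : Type u := Rt K (q + 1) →* ℂˣ

/-- The Cayley transform. -/
def kap {K : Type u} [Field K] (s : Kˣ) : K := (s : K) / ((s : K) - 1)

open Classical in
/-- The indicator of the trivial character. -/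
noncomputable def dl {K : Type u} [Field K] {q : ℕ} (ν : Ch K q) : ℂ := if ν = 1 then 1 else 0

section Model

variable {E K : Type u} [Field E] [Field K] [Algebra E K] {σ : E →+* E}

/-- The Weil character (dimension eleven). -/
noncomputable def wo (q : ℕ) (g : K ≃ₗ[E] K) : ℂ := -(-(q : ℂ)) ^ finrank E (fx g)

/-- Its component over the central character `ν`. -/
noncomputable def ze (q : ℕ) (ν : Ch K q) (g : K ≃ₗ[E] K) : ℂ :=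
  ((q : ℂ) + 1)⁻¹ * ∑ᶠ z : Rt K (q + 1), (((ν z)⁻¹ : ℂˣ) : ℂ) * wo q (mulH E K z * g)

/-- The matrix coefficient on the torus belonging to a linear character of `G`. -/
noncomputable def hm (q : ℕ) {G : Subgroup (K ≃ₗ[E] K)} (μ : G →* ℂˣ) (s : Kˣ) : ℂ :=
  (Nat.card G : ℂ)⁻¹ * ∑ᶠ g : G, (((μ g)⁻¹ : ℂˣ) : ℂ) * wo q (mulH E K s * g.1)

/-- The Fourier-Gauss transform. -/
noncomputable def Th (q : ℕ) (ψ : AddChar E ℂ) (f : K → ℂ) (x : K) : ℂ :=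
  ∑ᶠ u : K, f u * ψ (Algebra.trace E K (u ^ (q ^ 11 + 1) * x))

/-- Invariant functions. -/
def Inv (G : Subgroup (K ≃ₗ[E] K)) (f : K → ℂ) : Prop := ∀ g ∈ G, ∀ u, f (g u) = f u

/-- The number of orbits on vectors. -/
noncomputable def nO (G : Subgroup (K ≃ₗ[E] K)) : ℕ := Nat.card (MulAction.orbitRel.Quotient G K)

/-- Scalar maps. -/
def Sc (g : K ≃ₗ[E] K) : Prop := ∃ a : E, ∀ x, g x = a • x

/-- The component over `ν` is a linear character, trivial on `P`, plus an irreducible one. -/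
def Spl (G : Subgroup (K ≃ₗ[E] K)) (q t : ℕ) (ν : Ch K q) : Prop :=
  ∃ (μ : G →* ℂˣ) (χ : G → ℂ), IsIrrCharacter G χ ∧ (χ ≠ fun g => (μ g : ℂ)) ∧
    (∀ g : G, ze q ν g.1 = μ g + χ g) ∧ ∀ g : G, g.1 ∈ Pt E K t → μ g = 1

variable (E) in
/-- Invariance under the translations. -/
def TI (q : ℕ) (h : Kˣ → ℂ) : Prop :=
  ∀ s ∈ Rt K (q ^ 11 + 1), ∀ s' ∈ Rt K (q ^ 11 + 1), s ∉ Rt K (q + 1) → s' ∉ Rt K (q + 1) →
    ∀ c : E, kap s' = kap s + algebraMap E K c → h s' = h s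

variable (σ) in
/-- Invariance under the affine maps. -/
def AI (q : ℕ) (h : Kˣ → ℂ) : Prop :=
  ∀ s ∈ Rt K (q ^ 11 + 1), ∀ s' ∈ Rt K (q ^ 11 + 1), s ∉ Rt K (q + 1) → s' ∉ Rt K (q + 1) →
    ∀ r c : E, σ r = r → r ≠ 0 → kap s' = algebraMap E K r * kap s + algebraMap E K c → h s' = h s

variable (σ) in
/-- The class `z P ∖ z` is invariant under the translations. -/
def Cl (t : ℕ) (z : Kˣ) : Prop :=
  ∀ c : E, c + σ c = 0 → ∀ p ∈ Rt K t, p ≠ 1 → ∃ p' ∈ Rt K t, p' ≠ 1 ∧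
    kap (z * p') = kap (z * p) + algebraMap E K c

variable [Fintype E] (B : K →ₛₗ[σ] K →ₗ[E] E)

/-- The field model of the unitary space. -/
structure Fd (q R t : ℕ) : Prop where
  st : St B q
  rk : finrank E K = 11
  form : ∀ x y, B x y = Algebra.trace E K (x ^ q ^ 11 * y)
  card : q ^ 11 + 1 = R * (q + 1) * t
  hR : (R = 1 ∧ ¬ 11 ∣ q + 1) ∨ (R = 11 ∧ 11 ∣ q + 1)

/-- Elementary consequences.  `Z = Rt K (q+1)`, `P = Rt K t`, `T = Rt K (q^11+1)`. -/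
structure Kt (q R t : ℕ) : Prop extends Fd B q R t where
  pp : ∃ p f : ℕ, p.Prime ∧ CharP E p ∧ CharP K p ∧ 0 < f ∧ q = p ^ f
  q2 : 2 ≤ q
  copq : t.Coprime q
  cop1 : t.Coprime (q + 1)
  cop2 : t.Coprime (q ^ 2 - 1)
  cop7 : t.Coprime 11
  t43 : 683 ≤ t
  big : (11 * R) ^ 2 + 1 < t
  q13 : R = 11 → 32 ≤ q
  two : q = 2 → R = 1 ∧ t = 683
  pr29 : ∀ l : ℕ, l.Prime → l ∣ t → 23 ≤ l
  cardK : Nat.card K = q ^ 22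
  cardZ : Nat.card (Rt K (q + 1)) = q + 1
  cardP : Nat.card (Rt K t) = t
  cardT : Nat.card (Rt K (q ^ 11 + 1)) = q ^ 11 + 1
  cardPt : Nat.card (Pt E K t) = t
  cardCh : Nat.card (Ch K q) = q + 1
  cardS : Nat.card {c : E // c + σ c = 0} = q
  ZT : Rt K (q + 1) ≤ Rt K (q ^ 11 + 1)
  PT : Rt K t ≤ Rt K (q ^ 11 + 1)
  ZP : ∀ s ∈ Rt K (q + 1), s ∈ Rt K t → s = 1
  zE : ∀ z ∈ Rt K (q + 1), ∃ c : E, c * σ c = 1 ∧ (z : K) = algebraMap E K c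
  Ez : ∀ c : E, c * σ c = 1 → ∃ z ∈ Rt K (q + 1), (z : K) = algebraMap E K c
  tE : ∀ s ∈ Rt K (q ^ 11 + 1), ∀ c : E, (s : K) = algebraMap E K c → s ∈ Rt K (q + 1)
  iso : ∀ s : Kˣ, mulH E K s ∈ isom B ↔ s ∈ Rt K (q ^ 11 + 1)
  bar : ∃ τ : K ≃+* K, (∀ x, τ x = x ^ q ^ 11) ∧ (∀ x, τ (τ x) = x) ∧
    ∀ c : E, τ (algebraMap E K c) = algebraMap E K (σ c)
  kapT : ∀ s ∈ Rt K (q ^ 11 + 1), s ≠ 1 → kap s + kap s ^ q ^ 11 = 1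
  kapI : ∀ s s' : Kˣ, s ≠ 1 → s' ≠ 1 → kap s = kap s' → s = s'
  kapS : ∀ x : K, x + x ^ q ^ 11 = 1 → ∃ s ∈ Rt K (q ^ 11 + 1), s ≠ 1 ∧ kap s = x
  kapZ : ∀ s ∈ Rt K (q ^ 11 + 1), s ≠ 1 →
    (s ∈ Rt K (q + 1) ↔ ∃ c : E, kap s = algebraMap E K c)
  /-- translations by skew elements act on `T ∖ Z` -/
  trn : ∀ s ∈ Rt K (q ^ 11 + 1), s ∉ Rt K (q + 1) → ∀ c : E, c + σ c = 0 →
    ∃ s' ∈ Rt K (q ^ 11 + 1), s' ∉ Rt K (q + 1) ∧ kap s' = kap s + algebraMap E K c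

/-- The standing hypotheses on the overgroup. -/
structure Cu (q R t : ℕ) (G : Subgroup (K ≃ₗ[E] K)) : Prop extends Kt B q R t where
  le : G ≤ isom B
  mem : ∀ a : Kˣ, mulH E K a ∈ G ↔ ∃ z ∈ Rt K (q + 1), ∃ s ∈ Rt K t, a = z * s
  frob : ∃ φ ∈ G, ∀ x, φ x = x ^ q ^ 2
  nn : ∃ g ∈ G, ¬ Nm g
  dz : ∀ g ∈ G, ∃ z ∈ Rt K (q + 1), LinearEquiv.det (mulH E K z * g) = 1

/-- The components of the Weil character. -/
structure Zt (q R t : ℕ) : Prop where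
  chr : ∀ G : Subgroup (K ≃ₗ[E] K), G ≤ isom B → (∀ z ∈ Rt K (q + 1), mulH E K z ∈ G) →
    ∀ ν : Ch K q, IsCharacter G fun g => ze q ν g.1
  sum : ∀ g : K ≃ₗ[E] K, ∑ᶠ ν : Ch K q, ze q ν g = wo q g
  deg : ∀ ν : Ch K q, ze q ν (1 : K ≃ₗ[E] K) = (R * t : ℕ) - dl ν
  val : ∀ ν : Ch K q, ∀ s ∈ Rt K (q ^ 11 + 1), s ∉ Rt K (q + 1) → ze q ν (mulH E K s) = -dl ν
  cen : ∀ (ν : Ch K q) (z : Rt K (q + 1)) (g : K ≃ₗ[E] K),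
    ze q ν (mulH E K z * g) = ν z * ze q ν g
  com : ∀ (z : Rt K (q + 1)) (g : K ≃ₗ[E] K), mulH E K z * g = g * mulH E K z
  cls : ∀ g k : K ≃ₗ[E] K, wo q (k * g * k⁻¹) = wo q g
  sq : ∀ g : K ≃ₗ[E] K, wo q g * wo q g = Nat.card {x : K // g x = x}

/-- The data extracted from the Weil representation. -/
structure Wr (q : ℕ) (ψ : AddChar E ℂ) (a L : (K ≃ₗ[E] K) → K → ℂ) : Prop where
  sk : Sk σ ψ
  inv : ∀ g ∈ isom B, ∀ k ∈ isom B, ∀ u, a (k * g * k⁻¹) (k u) = a g u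
  tr : ∀ g ∈ isom B, ∀ g' ∈ isom B, wo q (g' * g) = ∑ᶠ u : K, a g u * L g' u
  val : ∀ s ∈ Rt K (q ^ 11 + 1), s ≠ 1 → ∀ u,
    L (mulH E K s) u = -ψ (Algebra.trace E K (u ^ (q ^ 11 + 1) * kap s))

/-- The functions on the torus. -/
structure Fn (q t : ℕ) (G : Subgroup (K ≃ₗ[E] K)) (ψ : AddChar E ℂ) (I : Finset (Ch K q))
    (h : Ch K q → Kˣ → ℂ) : Prop where
  sk : Sk σ ψ
  one : 1 ∉ I
  hz : ∀ ν ∈ I, ∀ (z : Rt K (q + 1)), ∀ s ∈ Rt K (q ^ 11 + 1), h ν (z * s) = ν z * h ν s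
  hp : ∀ ν ∈ I, ∀ p ∈ Rt K t, ∀ s ∈ Rt K (q ^ 11 + 1), h ν (p * s) = h ν s
  hf : ∀ ν ∈ I, ∀ s ∈ Rt K (q ^ 11 + 1), h ν (s ^ q ^ 2) = h ν s
  h1 : ∀ ν ∈ I, h ν 1 = 1
  ex : ∀ ν ∈ I, ∃ f, Inv G f ∧ ∀ s ∈ Rt K (q ^ 11 + 1), s ≠ 1 → h ν s = Th q ψ f (kap s)
  sp : ∀ f, Inv G f → ∃ (c₀ : ℂ) (c : Ch K q → ℂ), ∀ s ∈ Rt K (q ^ 11 + 1), s ∉ Rt K (q + 1) →
    Th q ψ f (kap s) = c₀ + ∑ ν ∈ I, c ν * h ν s
  gu : ∀ f, Inv (isom B) f → ∃ c₀ : ℂ, ∀ s ∈ Rt K (q ^ 11 + 1), s ∉ Rt K (q + 1) →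
    Th q ψ f (kap s) = c₀
  orb : nO G = q + 1 + I.card
  irr : ∀ ν ∉ I, IsIrrCharacter G fun g => ze q ν g.1

end Model

section Geo

variable {E V : Type u} [Field E] [AddCommGroup V] [Module E V] {σ : E →+* E}
  (B : V →ₛₗ[σ] V →ₗ[E] E)

/-- Transitivity on the vectors of each non-zero norm. -/
def Tr1 (G : Subgroup (V ≃ₗ[E] V)) : Prop :=
  ∀ u v, B u u = B v v → B u u ≠ 0 → ∃ g ∈ G, g u = v

/-- All scalars are induced on each isotropic point. -/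
def Stab (G : Subgroup (V ≃ₗ[E] V)) : Prop :=
  ∀ w, B w w = 0 → ∀ a : E, a ≠ 0 → ∃ g ∈ G, g w = a • w

/-- Some non-isotropic vector has a stabiliser with a determinant other than `± 1`. -/
def DetBig (G : Subgroup (V ≃ₗ[E] V)) : Prop :=
  ∃ v, B v v ≠ 0 ∧ ∃ g ∈ G, g v = v ∧ LinearEquiv.det g ^ 2 ≠ 1

/-- `G` contains a homology. -/
def HasH (G : Subgroup (V ≃ₗ[E] V)) : Prop :=
  ∃ v, B v v ≠ 0 ∧ ∃ g ∈ G, g ≠ 1 ∧ ∀ u, B v u = 0 → g u = u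

variable (σ) in
/-- `G` contains the scalars of norm one. -/
def HasZ (G : Subgroup (V ≃ₗ[E] V)) : Prop :=
  ∀ a : E, a * σ a = 1 → ∃ g ∈ G, ∀ u, g u = a • u

end Geo

/-- The local structure at the prime `l`. -/
structure Gl (G : Type u) [Group G] (l : ℕ) : Prop where
  ab : ∀ x a b : G, orderOf x = l → Commute a x → Commute b x → Commute a b
  cy : ∀ x y : G, orderOf x = l → orderOf y = l → Commute x y → y ∈ Subgroup.zpowers x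
  six : ∀ x : G, orderOf x = l → {y : G | y ∈ Subgroup.zpowers x ∧ IsConj x y}.ncard ≤ 10

/-! ### Numbers and fields -/

def KtStmt : Prop := ∀ (E K : Type u) [Field E] [Fintype E] [Field K] [Algebra E K] [Finite K]
  (σ : E →+* E) (B : K →ₛₗ[σ] K →ₗ[E] E) (q R t : ℕ), Fd B q R t → Kt B q R t

def NumaStmt : Prop := ∀ q t m c : ℕ, IsPrimePow q → 32 ≤ q → 11 ∣ q + 1 →
  q ^ 11 + 1 = 11 * (q + 1) * t → 1 ≤ c → c ≤ 3 → c < m → m ≤ 11 → ¬ (m = 11 ∧ c = 1) →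
  ¬ m * t - c ∣ ordGU q 11

def NumbStmt : Prop := ∀ q t : ℕ, IsPrimePow q → 32 ≤ q → 11 ∣ q + 1 →
  q ^ 11 + 1 = 11 * (q + 1) * t → ¬ t - 1 ∣ ordGU q 11

def Num2Stmt : Prop := ∀ q : ℕ, 32 ≤ q → 11 ∣ q + 1 →
  ∃ l s : ℕ, l.Prime ∧ l ≠ 5 ∧ l ^ s ∣ q ^ 4 + q ^ 3 + q ^ 2 + q + 1 ∧ 122 ≤ l ^ s

/-! ### Character theory -/

def ZtStmt : Prop := ∀ (E K : Type u) [Field E] [Fintype E] [Field K] [Algebra E K] [Finite K]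
  (σ : E →+* E) (B : K →ₛₗ[σ] K →ₗ[E] E) (q R t : ℕ), Kt B q R t → Zt B q R t

def UcStmt : Prop := ∀ (E K : Type u) [Field E] [Fintype E] [Field K] [Algebra E K] [Finite K]
  (σ : E →+* E) (B : K →ₛₗ[σ] K →ₗ[E] E) (q R t : ℕ) (G : Subgroup (K ≃ₗ[E] K)),
  Cu B q R t G → t.Coprime ((Pt E K t).relIndex G) ∧
    ∀ Y : Subgroup (K ≃ₗ[E] K), Pt E K t ≤ Y → Y ≤ G → ∃ U : H12.UC Y,
      U.P = (Pt E K t).subgroupOf Y ∧ U.C = (mulH E K).range.subgroupOf Y ∧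
      (∀ g : Y, g ∈ U.N ↔ Nm (g : K ≃ₗ[E] K)) ∧ U.e ∣ 11 ∧
      ∀ c : U.C, U.τ c = 1 ↔ Sc ((c : Y) : K ≃ₗ[E] K)

def LinStmt : Prop := ∀ (E K : Type u) [Field E] [Fintype E] [Field K] [Algebra E K] [Finite K]
  (σ : E →+* E) (B : K →ₛₗ[σ] K →ₗ[E] E) (q R t : ℕ) (G : Subgroup (K ≃ₗ[E] K)),
  Cu B q R t G → ∀ χ : G → ℂ, IsIrrCharacter G χ → (Pt E K t).subgroupOf G ≤ H11.charKer χ →
    ∃ μ : G →* ℂˣ, χ = fun g => (μ g : ℂ)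

/-- Abelian groups normalised by an element of large prime order of the field. -/
def AbStmt : Prop := ∀ (E K : Type u) [Field E] [Finite E] [Field K] [Algebra E K] [Finite K]
  (A : Subgroup (K ≃ₗ[E] K)) (r l : ℕ) (s : Kˣ), finrank E K = 11 → r.Prime → l.Prime → 23 ≤ l →
  r ≠ l → orderOf s = l → (s : K) ∉ E ∙ (1 : K) → IsPGroup r A →
  (∀ a ∈ A, ∀ b ∈ A, a * b = b * a) → (∀ a ∈ A, mulH E K s * a * (mulH E K s)⁻¹ ∈ A) →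
  ∀ a ∈ A, mulH E K s * a = a * mulH E K s

def QsStmt : Prop := ∀ (E K : Type u) [Field E] [Finite E] [Field K] [Algebra E K] [Finite K]
  (Q : Subgroup (K ≃ₗ[E] K)) (r l : ℕ) (s : Kˣ), finrank E K = 11 → r.Prime → l.Prime → 23 ≤ l →
  r ≠ l → orderOf s = l → (s : K) ∉ E ∙ (1 : K) → IsPGroup r Q →
  (∀ a ∈ Q, mulH E K s * a * (mulH E K s)⁻¹ ∈ Q) →
  (∀ a ∈ Q, mulH E K s * a = a * mulH E K s → Sc a) → ∀ a ∈ Q, Sc a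

def E1Stmt : Prop := ∀ (E K : Type u) [Field E] [Fintype E] [Field K] [Algebra E K] [Finite K]
  (σ : E →+* E) (B : K →ₛₗ[σ] K →ₗ[E] E) (q R t : ℕ) (G : Subgroup (K ≃ₗ[E] K)),
  Cu B q R t G → ∃ j ∈ SS G t, Nm j ∧ j ∉ (mulH E K).range

def SmallStmt : Prop := ∀ (E K : Type u) [Field E] [Fintype E] [Field K] [Algebra E K] [Finite K]
  (σ : E →+* E) (B : K →ₛₗ[σ] K →ₗ[E] E) (q R t : ℕ) (G : Subgroup (K ≃ₗ[E] K)),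
  Cu B q R t G → ∀ ψ : G → ℂ, IsIrrCharacter G ψ → ¬ (Pt E K t).subgroupOf G ≤ H11.charKer ψ →
    11 * R < charDegree ψ

def ConStmt : Prop := ∀ (E K : Type u) [Field E] [Fintype E] [Field K] [Algebra E K] [Finite K]
  (σ : E →+* E) (B : K →ₛₗ[σ] K →ₗ[E] E) (q R t : ℕ) (G : Subgroup (K ≃ₗ[E] K)) [Fintype G],
  Cu B q R t G → Zt B q R t → ∀ (ν : Ch K q) (χ : G → ℂ), IsIrrCharacter G χ →
    classInner (fun g : G => ze q ν g.1 + dl ν) χ ≠ 0 → ∃ (m : ℕ) (c : ℤ), |c| ≤ 3 ∧ 0 ≤ (m : ℤ) + c ∧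
      (charDegree χ : ℤ) = m * t + c ∧ ∀ g : G, g.1 ∈ Pt E K t → g ≠ 1 → χ g = c

def DecStmt : Prop := ∀ (E K : Type u) [Field E] [Fintype E] [Field K] [Algebra E K] [Finite K]
  (σ : E →+* E) (B : K →ₛₗ[σ] K →ₗ[E] E) (q R t : ℕ) (G : Subgroup (K ≃ₗ[E] K)) [Fintype G],
  Cu B q R t G → Zt B q R t → IsIrrCharacter G (fun g => ze q (1 : Ch K q) g.1) ∧
    ∀ ν : Ch K q, ν ≠ 1 → Spl G q t ν ∨ ∀ χ : G → ℂ, IsIrrCharacter G χ →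
      classInner (fun g : G => ze q ν g.1) χ ≠ 0 → ∃ a, 1 ≤ a ∧ a ≤ R ∧ charDegree χ = a * t

/-- The module structure of an element of order `l`. -/
def Gl1Stmt : Prop := ∀ (E V : Type u) [Field E] [Fintype E] [AddCommGroup V] [Module E V]
  [Finite V] (σ : E →+* E) (B : V →ₛₗ[σ] V →ₗ[E] E) (q l : ℕ), St B q → finrank E V = 11 →
  l.Prime → l ≠ 5 → l ∣ q ^ 4 + q ^ 3 + q ^ 2 + q + 1 → ∀ x ∈ isom B, orderOf x = l →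
  ∃ U₁ U₂ : Submodule E V, finrank E (fx x) = 1 ∧ finrank E U₁ = 5 ∧ finrank E U₂ = 5 ∧
    TotIso B U₁ ∧ TotIso B U₂ ∧ fx x ⊔ U₁ ⊔ U₂ = ⊤ ∧
    (∀ w ∈ fx x, ∀ u ∈ U₁ ⊔ U₂, B w u = 0) ∧ (∀ u ∈ U₁, x u ∈ U₁) ∧ (∀ u ∈ U₂, x u ∈ U₂) ∧
    ∀ W : Submodule E V, (∀ u ∈ W, x u ∈ W) → W ⊓ fx x = ⊥ → W ≠ ⊥ → finrank E W ≤ 5 →
      W = U₁ ∨ W = U₂

def Gl2Stmt : Prop := ∀ (E V : Type u) [Field E] [Fintype E] [AddCommGroup V] [Module E V]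
  [Finite V] (σ : E →+* E) (B : V →ₛₗ[σ] V →ₗ[E] E) (q l : ℕ), St B q → finrank E V = 11 →
  l.Prime → l ≠ 5 → l ∣ q ^ 4 + q ^ 3 + q ^ 2 + q + 1 → ∀ G : Subgroup (V ≃ₗ[E] V), G ≤ isom B → Gl G l

def DegaStmt : Prop := ∀ (G : Type u) [Group G] [Finite G] (l s : ℕ), l.Prime → Gl G l →
  l ^ s ∣ Nat.card G → 122 ≤ l ^ s → ∀ χ : G → ℂ, IsIrrCharacter G χ →
    ∃ δ : ℤ, |δ| ≤ 10 ∧ ((l ^ s : ℕ) : ℤ) ∣ (charDegree χ : ℤ) - δ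

def DcStmt : Prop := ∀ (E K : Type u) [Field E] [Fintype E] [Field K] [Algebra E K] [Finite K]
  (σ : E →+* E) (B : K →ₛₗ[σ] K →ₗ[E] E) (q R t : ℕ) (G : Subgroup (K ≃ₗ[E] K)),
  Cu B q R t G → Zt B q R t → ∀ ν : Ch K q,
    IsIrrCharacter G (fun g => ze q ν g.1) ∨ (ν ≠ 1 ∧ Spl G q t ν)

/-! ### Functions on the torus -/

def WrStmt : Prop := ∀ (E K : Type u) [Field E] [Fintype E] [Field K] [Algebra E K] [Finite K]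
  (σ : E →+* E) (B : K →ₛₗ[σ] K →ₗ[E] E) (q R t : ℕ), Kt B q R t → ∃ ψ a L, Wr B q ψ a L

def OrbnStmt : Prop := ∀ (E K : Type u) [Field E] [Fintype E] [Field K] [Algebra E K] [Finite K]
  (σ : E →+* E) (B : K →ₛₗ[σ] K →ₗ[E] E) (q R t : ℕ) (G : Subgroup (K ≃ₗ[E] K)),
  Cu B q R t G → Zt B q R t → nO (isom B) ≤ q + 1 ∧ ∀ I : Finset (Ch K q),
    (∀ ν ∈ I, Spl G q t ν) → (∀ ν ∉ I, IsIrrCharacter G fun g => ze q ν g.1) →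
    nO G = q + 1 + I.card

def SpanStmt : Prop := ∀ (E K : Type u) [Field E] [Fintype E] [Field K] [Algebra E K] [Finite K]
  (σ : E →+* E) (B : K →ₛₗ[σ] K →ₗ[E] E) (q R t : ℕ) (G : Subgroup (K ≃ₗ[E] K))
  (ψ : AddChar E ℂ) (a L : (K ≃ₗ[E] K) → K → ℂ) (I : Finset (Ch K q)) (μ : Ch K q → G →* ℂˣ),
  Kt B q R t → Zt B q R t → Wr B q ψ a L → G ≤ isom B →
  (∀ z ∈ Rt K (q + 1), mulH E K z ∈ G) → Pt E K t ≤ G → 1 ∉ I →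
  (∀ ν ∈ I, ∀ (z : Rt K (q + 1)) (g : G), g.1 = mulH E K z → μ ν g = ν z) →
  (∀ ν ∈ I, ∀ g : G, g.1 ∈ Pt E K t → μ ν g = 1) → (∀ ν ∈ I, hm q (μ ν) 1 = 1) →
  nO G ≤ q + 1 + I.card →
  (∀ ν ∈ I, ∃ f, Inv G f ∧ ∀ s ∈ Rt K (q ^ 11 + 1), s ≠ 1 → hm q (μ ν) s = Th q ψ f (kap s)) ∧
  ∀ f, Inv G f → ∃ (c₀ : ℂ) (c : Ch K q → ℂ), ∀ s ∈ Rt K (q ^ 11 + 1), s ∉ Rt K (q + 1) →
    Th q ψ f (kap s) = c₀ + ∑ ν ∈ I, c ν * hm q (μ ν) s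

def FunStmt : Prop := ∀ (E K : Type u) [Field E] [Fintype E] [Field K] [Algebra E K] [Finite K]
  (σ : E →+* E) (B : K →ₛₗ[σ] K →ₗ[E] E) (q R t : ℕ) (G : Subgroup (K ≃ₗ[E] K)),
  Cu B q R t G → Zt B q R t → ∃ ψ I h, Fn B q t G ψ I h

def Orb1Stmt : Prop := ∀ (E K : Type u) [Field E] [Fintype E] [Field K] [Algebra E K] [Finite K]
  (σ : E →+* E) (B : K →ₛₗ[σ] K →ₗ[E] E) (q : ℕ) (G : Subgroup (K ≃ₗ[E] K)),
  St B q → finrank E K = 11 → G ≤ isom B → ¬ Tr1 B G → 2 * q ≤ nO G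

/-- Translations preserve the joint level sets. -/
def Lev0Stmt : Prop := ∀ (E K : Type u) [Field E] [Fintype E] [Field K] [Algebra E K] [Finite K]
  (σ : E →+* E) (B : K →ₛₗ[σ] K →ₗ[E] E) (q R t : ℕ) (G : Subgroup (K ≃ₗ[E] K))
  (ψ : AddChar E ℂ) (I : Finset (Ch K q)) (h : Ch K q → Kˣ → ℂ), Cu B q R t G →
  Fn B q t G ψ I h → ∀ s ∈ Rt K (q ^ 11 + 1), ∀ s' ∈ Rt K (q ^ 11 + 1),
    ∀ r ∈ Rt K (q ^ 11 + 1), ∀ r' ∈ Rt K (q ^ 11 + 1), s ∉ Rt K (q + 1) → s' ∉ Rt K (q + 1) →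
    r ∉ Rt K (q + 1) → r' ∉ Rt K (q + 1) → ∀ c : E, kap r = kap s + algebraMap E K c →
    kap r' = kap s' + algebraMap E K c → (∀ ν ∈ I, h ν s = h ν s') → ∀ ν ∈ I, h ν r = h ν r'

def Lev1Stmt : Prop := ∀ (E K : Type u) [Field E] [Fintype E] [Field K] [Algebra E K] [Finite K]
  (σ : E →+* E) (B : K →ₛₗ[σ] K →ₗ[E] E) (q t : ℕ) (G : Subgroup (K ≃ₗ[E] K))
  (ψ : AddChar E ℂ) (I : Finset (Ch K q)) (h : Ch K q → Kˣ → ℂ), Cu B q 1 t G →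
  Fn B q t G ψ I h → q ≤ I.card + 1 → ∃ z ∈ Rt K (q + 1), Cl σ t z

def Lev7Stmt : Prop := ∀ (E K : Type u) [Field E] [Fintype E] [Field K] [Algebra E K] [Finite K]
  (σ : E →+* E) (B : K →ₛₗ[σ] K →ₗ[E] E) (q t : ℕ) (G : Subgroup (K ≃ₗ[E] K))
  (ψ : AddChar E ℂ) (I : Finset (Ch K q)) (h : Ch K q → Kˣ → ℂ), Cu B q 11 t G →
  Fn B q t G ψ I h → q ≤ I.card + 1 → False

def PolyStmt : Prop := ∀ (E K : Type u) [Field E] [Fintype E] [Field K] [Algebra E K] [Finite K]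
  (σ : E →+* E) (B : K →ₛₗ[σ] K →ₗ[E] E) (q t : ℕ), Kt B q 1 t → 3 ≤ q →
  ∀ z ∈ Rt K (q + 1), ¬ Cl σ t z

def Q2Stmt : Prop := ∀ (E K : Type u) [Field E] [Fintype E] [Field K] [Algebra E K] [Finite K]
  (σ : E →+* E) (B : K →ₛₗ[σ] K →ₗ[E] E) (G : Subgroup (K ≃ₗ[E] K))
  (ψ : AddChar E ℂ) (I : Finset (Ch K 2)) (h : Ch K 2 → Kˣ → ℂ), Cu B 2 1 683 G →
  Fn B 2 683 G ψ I h → Tr1 B G

def InvStmt : Prop := ∀ (E K : Type u) [Field E] [Fintype E] [Field K] [Algebra E K] [Finite K]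
  (σ : E →+* E) (B : K →ₛₗ[σ] K →ₗ[E] E) (q R t : ℕ) (G : Subgroup (K ≃ₗ[E] K))
  (ψ : AddChar E ℂ) (I : Finset (Ch K q)) (h : Ch K q → Kˣ → ℂ), Cu B q R t G →
  Fn B q t G ψ I h → Tr1 B G → ∀ ν ∈ I, TI E q (h ν) ∧ (Stab B G → AI σ q (h ν))

/-! ### No component splits -/

/-- Digits: a tensor of polynomials of degree `< q` vanishing on a twisted diagonal is zero. -/
def TenaStmt : Prop := ∀ (K ι : Type u) [Field K] (q n : ℕ) (S : Finset K) (s : Finset ι)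
  (α : ι → K) (f : ι → Polynomial K), 2 ≤ q → q ^ n ≤ S.card →
  (∀ i ∈ s, (f i).natDegree < q) →
  (∀ c ∈ S, ∑ i ∈ s, α i * ∏ j : Fin n, (f i).eval (c ^ q ^ (j : ℕ)) = 0) →
  ∀ y : Fin n → K, ∑ i ∈ s, α i * ∏ j : Fin n, (f i).eval (y j) = 0

def TenbStmt : Prop := ∀ (K : Type u) [Field K] [Finite K] (q : ℕ) (δ e : K) (a : ℕ → K),
  2 ≤ q → (∀ x y : K, (x + y) ^ q = x ^ q + y ^ q) → Nat.card {c : K // c ^ q ^ 11 = c} = q ^ 11 →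
  δ ^ q ≠ δ → e ^ q = e → e ≠ 0 → δ + e ≠ δ ^ q → δ ^ q + e ≠ δ →
  (∀ c : K, c ^ q ^ 11 = c → c ^ q ≠ c →
    ∑ k ∈ Finset.range q, a k * ∏ j : Fin 11,
      ((c ^ q ^ (j : ℕ) - δ ^ q) ^ k * (c ^ q ^ (j : ℕ) - δ) ^ (q - 1 - k)) =
    ∑ k ∈ Finset.range q, a k * ∏ j : Fin 11,
      ((c ^ q ^ (j : ℕ) + e - δ ^ q) ^ k * (c ^ q ^ (j : ℕ) + e - δ) ^ (q - 1 - k))) →
  ∀ k < q, a k = 0

/-- A property of the determinant that is invariant under the translations is constant. -/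
def TenStmt : Prop := ∀ (E K : Type u) [Field E] [Fintype E] [Field K] [Algebra E K] [Finite K]
  (σ : E →+* E) (B : K →ₛₗ[σ] K →ₗ[E] E) (q R t : ℕ), Kt B q R t → 3 ≤ q → ∀ φ : Kˣ → Prop,
  (∀ s ∈ Rt K (q ^ 11 + 1), ∀ s' ∈ Rt K (q ^ 11 + 1), s ^ (R * t) = s' ^ (R * t) → φ s → φ s') →
  (∀ s ∈ Rt K (q ^ 11 + 1), ∀ s' ∈ Rt K (q ^ 11 + 1), s ∉ Rt K (q + 1) → s' ∉ Rt K (q + 1) →
    ∀ c : E, kap s' = kap s + algebraMap E K c → φ s → φ s') →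
  ∀ s ∈ Rt K (q ^ 11 + 1), ∀ s' ∈ Rt K (q ^ 11 + 1), φ s → φ s'

/-- For `R = 11` the set `Z P ∖ Z` is not invariant under the translations. -/
def FreeStmt : Prop := ∀ (E K : Type u) [Field E] [Fintype E] [Field K] [Algebra E K] [Finite K]
  (σ : E →+* E) (B : K →ₛₗ[σ] K →ₗ[E] E) (q t : ℕ), Kt B q 11 t →
  ¬ ∀ z ∈ Rt K (q + 1), ∀ p ∈ Rt K t, p ≠ 1 → ∀ s' ∈ Rt K (q ^ 11 + 1), ∀ c : E,
    kap s' = kap (z * p) + algebraMap E K c → ∃ z' ∈ Rt K (q + 1), ∃ p' ∈ Rt K t, s' = z' * p'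

def NobStmt : Prop := ∀ (E K : Type u) [Field E] [Fintype E] [Field K] [Algebra E K] [Finite K]
  (σ : E →+* E) (B : K →ₛₗ[σ] K →ₗ[E] E) (q R t : ℕ) (G : Subgroup (K ≃ₗ[E] K))
  (ψ : AddChar E ℂ) (I : Finset (Ch K q)) (h : Ch K q → Kˣ → ℂ), Cu B q R t G →
  Fn B q t G ψ I h → (∀ ν ∈ I, TI E q (h ν)) → I = ∅

/-! ### The determinant of a stabiliser -/

def IrryStmt : Prop := ∀ (E K : Type u) [Field E] [Fintype E] [Field K] [Algebra E K] [Finite K]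
  (σ : E →+* E) (B : K →ₛₗ[σ] K →ₗ[E] E) (q R t : ℕ) (G Y : Subgroup (K ≃ₗ[E] K)),
  Cu B q R t G → Zt B q R t → Y ≤ G → (∀ g ∈ G, ∃ z ∈ Rt K (q + 1), mulH E K z * g ∈ Y) →
  ∀ ν : Ch K q, (IsIrrCharacter G fun g => ze q ν g.1) → IsIrrCharacter Y fun g => ze q ν g.1

open Classical in
def CntStmt : Prop := ∀ (E K : Type u) [Field E] [Fintype E] [Field K] [Algebra E K] [Finite K]
  (σ : E →+* E) (B : K →ₛₗ[σ] K →ₗ[E] E) (q R t : ℕ) (G Y : Subgroup (K ≃ₗ[E] K)),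
  Cu B q R t G → Y ≤ G → (∀ g ∈ G, ∃ z ∈ Rt K (q + 1), mulH E K z * g ∈ Y) →
  ∀ ν : Ch K q, Nat.card {ν' : Ch K q // ∀ z : Rt K (q + 1), mulH E K z ∈ Y → ν' z = ν z} =
    Y.relIndex G

def OrbyStmt : Prop := ∀ (E K : Type u) [Field E] [Fintype E] [Field K] [Algebra E K] [Finite K]
  (σ : E →+* E) (B : K →ₛₗ[σ] K →ₗ[E] E) (q R t : ℕ) (G Y : Subgroup (K ≃ₗ[E] K)),
  Cu B q R t G → Zt B q R t → Y ≤ G → (∀ g ∈ G, ∃ z ∈ Rt K (q + 1), mulH E K z * g ∈ Y) →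
  (∀ ν : Ch K q, IsIrrCharacter G fun g => ze q ν g.1) →
  nO Y + Y.relIndex G ≤ q * Y.relIndex G + 2

def OrbgStmt : Prop := ∀ (E K : Type u) [Field E] [Field K] [Algebra E K] [Finite K]
  (G Y : Subgroup (K ≃ₗ[E] K)), Y ≤ G → (∀ w : K, w ≠ 0 → ∀ g ∈ G, g w = w → g ∈ Y) →
  nO Y + Y.relIndex G = Y.relIndex G * nO G + 1

def IsostStmt : Prop := ∀ (E V : Type u) [Field E] [Fintype E] [AddCommGroup V] [Module E V]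
  [Finite V] (σ : E →+* E) (B : V →ₛₗ[σ] V →ₗ[E] E) (q : ℕ) (G : Subgroup (V ≃ₗ[E] V)),
  St B q → G ≤ isom B → ¬ DetBig B G →
  ∀ w : V, w ≠ 0 → ∀ g ∈ G, g w = w → LinearEquiv.det g ^ 2 = 1

def DetbStmt : Prop := ∀ (E K : Type u) [Field E] [Fintype E] [Field K] [Algebra E K] [Finite K]
  (σ : E →+* E) (B : K →ₛₗ[σ] K →ₗ[E] E) (q R t : ℕ) (G : Subgroup (K ≃ₗ[E] K)),
  Cu B q R t G → Zt B q R t → nO G = q + 1 →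
  (∀ ν : Ch K q, IsIrrCharacter G fun g => ze q ν g.1) → DetBig B G

/-! ### Finding a homology -/

def LdivStmt : Prop := ∀ (E K : Type u) [Field E] [Fintype E] [Field K] [Algebra E K] [Finite K]
  (σ : E →+* E) (B : K →ₛₗ[σ] K →ₗ[E] E) (q R t : ℕ) (G : Subgroup (K ≃ₗ[E] K)),
  Cu B q R t G → Zt B q R t → (IsIrrCharacter G fun g => ze q (1 : Ch K q) g.1) →
  HasZ σ G ∧ ∃ l : ℕ, l.Prime ∧ l ≠ 5 ∧ l ∣ q ^ 4 + q ^ 3 + q ^ 2 + q + 1 ∧ l ∣ Nat.card G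

def FratStmt : Prop := ∀ (G : Type u) [Group G] [Finite G] (l : ℕ) (N : Subgroup G), N.Normal →
  l.Prime → Gl G l → ∀ x ∈ N, orderOf x = l →
  ∀ g : G, ∃ k ∈ N, k * g * x * (k * g)⁻¹ ∈ Subgroup.zpowers x

def HomaStmt : Prop := ∀ (E V : Type u) [Field E] [Fintype E] [AddCommGroup V] [Module E V]
  [Finite V] (σ : E →+* E) (B : V →ₛₗ[σ] V →ₗ[E] E) (q l r : ℕ), St B q → finrank E V = 11 →
  l.Prime → l ≠ 5 → l ∣ q ^ 4 + q ^ 3 + q ^ 2 + q + 1 → r ∣ q + 1 → ∀ x ∈ isom B, orderOf x = l →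
  ∀ g ∈ isom B, g ^ r = 1 → Commute g x →
  ∃ a : E, a * σ a = 1 ∧ ∀ u, (∀ w ∈ fx x, B w u = 0) → g u = a • u

def PermStmt : Prop := ∀ (E V A : Type u) [Field E] [AddCommGroup V] [Module E V]
  [FiniteDimensional E V] [Group A] [Finite A] [DecidableEq A] (ρ : Representation E A V)
  (H : Subgroup A) (W : Submodule E V),
  DirectSum.IsInternal (fun h : H => W.map (ρ (h : A))) → ∀ h ∈ H, LinearMap.det (ρ h) ^ 2 = 1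

def FrobStmt : Prop := ∀ (E V : Type u) [Field E] [Fintype E] [AddCommGroup V] [Module E V]
  [Finite V] (σ : E →+* E) (B : V →ₛₗ[σ] V →ₗ[E] E) (q l : ℕ), St B q → finrank E V = 11 →
  l.Prime → l ≠ 5 → l ∣ q ^ 4 + q ^ 3 + q ^ 2 + q + 1 → ∀ x ∈ isom B, orderOf x = l →
  ∀ n ∈ isom B, n * x * n⁻¹ ∈ Subgroup.zpowers x → (∀ w ∈ fx x, n w = w) →
  (∀ i : ℕ, Commute (n ^ i) x → n ^ i = 1) → LinearEquiv.det n ^ 2 = 1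

def NrmStmt : Prop := ∀ (E V : Type u) [Field E] [Fintype E] [AddCommGroup V] [Module E V]
  [Finite V] (σ : E →+* E) (B : V →ₛₗ[σ] V →ₗ[E] E) (q l : ℕ) (G : Subgroup (V ≃ₗ[E] V)),
  St B q → finrank E V = 11 → l.Prime → l ≠ 5 → l ∣ q ^ 4 + q ^ 3 + q ^ 2 + q + 1 →
  G ≤ isom B → l ∣ Nat.card G → Tr1 B G → DetBig B G →
  ∃ x ∈ G, orderOf x = l ∧ ∃ n ∈ G, n * x * n⁻¹ ∈ Subgroup.zpowers x ∧
    (∀ w ∈ fx x, n w = w) ∧ LinearEquiv.det n ^ 2 ≠ 1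

def HomStmt : Prop := ∀ (E V : Type u) [Field E] [Fintype E] [AddCommGroup V] [Module E V]
  [Finite V] (σ : E →+* E) (B : V →ₛₗ[σ] V →ₗ[E] E) (q l : ℕ) (G : Subgroup (V ≃ₗ[E] V)),
  St B q → finrank E V = 11 → l.Prime → l ≠ 5 → l ∣ q ^ 4 + q ^ 3 + q ^ 2 + q + 1 →
  G ≤ isom B → HasZ σ G → ∀ x ∈ G, orderOf x = l → ∀ n ∈ G, n * x * n⁻¹ ∈ Subgroup.zpowers x →
  (∀ w ∈ fx x, n w = w) → LinearEquiv.det n ^ 2 ≠ 1 → HasH B G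

def GenhStmt : Prop := ∀ (E V : Type u) [Field E] [Fintype E] [AddCommGroup V] [Module E V]
  [Finite V] (σ : E →+* E) (B : V →ₛₗ[σ] V →ₗ[E] E) (q : ℕ) (G : Subgroup (V ≃ₗ[E] V)),
  St B q → finrank E V = 11 → G ≤ isom B → HasH B G → Tr1 B G → sisom B ≤ G

/-! ### The top -/

def MainStmt : Prop := ∀ (E K : Type u) [Field E] [Fintype E] [Field K] [Algebra E K] [Finite K]
  (σ : E →+* E) (B : K →ₛₗ[σ] K →ₗ[E] E) (q R t : ℕ) (G : Subgroup (K ≃ₗ[E] K)),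
  Cu B q R t G → sisom B ≤ G

def MaxStmt : Prop := ∀ (E K : Type u) [Field E] [Fintype E] [Field K] [Algebra E K] [Finite K]
  (σ : E →+* E) (B : K →ₛₗ[σ] K →ₗ[E] E) (q : ℕ), St B q → finrank E K = 11 →
  (∀ x y, B x y = Algebra.trace E K (x ^ q ^ 11 * y)) → ∀ N : Subgroup (K ≃ₗ[E] K),
  (∀ g, g ∈ N ↔ Nm g) → Geo.IsMaximalIn (sisom B) (N ⊓ sisom B)

def C4Stmt : Prop := ∀ (F : Type u) [Field F] [Fintype F] (q : ℕ), Fintype.card F = q ^ 2 →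
  ∀ K : Subalgebra F (Matrix (Fin 11) (Fin 11) F), Geo.IsFieldSubalgebra 11 K →
  Geo.IsAdjointClosedFor (hermForm 11 F q) K →
  Geo.IsMaximalIn (GU 11 F q ⊓ Geo.specialLinear (Fin 11) F)
    (Geo.subalgebraNormalizer K ⊓ (GU 11 F q ⊓ Geo.specialLinear (Fin 11) F))

end Cfsg.Agent.H74.UV
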