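import Mathlib
import Cfsg.Agent.H41.S6Kit2

/-!
# The pieces WC and K11 of the `2 × Sp₆(2)` project
-/

set_option autoImplicit false

namespace Cfsg.Agent.H74.S6W

open Cfsg Subgroup
open Cfsg.Agent.H44 Cfsg.Agent.H55.Sp6 Cfsg.Agent.H2.L3E Cfsg.Agent.H41.S6

universe u

/-- the code of `sg u v` for `u, v < 8` -/
def sc (u v : ℕ) : ℕ := ([u, v, u ^^^ v].map bc).foldr (· ^^^ ·) 0

theorem xor_lt8 : ∀ u < 8, ∀ v < 8, u ^^^ v < 8 := by decide

theorem xor_lt64 {c d : ℕ} (hc : c < 64) (hd : d < 64) : c ^^^ d < 64 :=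
  Nat.xor_lt_two_pow (n := 6) hc hd

theorem sg_sc {u v : ℕ} (hu : u < 8) (hv : v < 8) : sc u v < 64 ∧ sg u v = ac (sc u v) := by
  apply ev_lt8
  intro a ha
  simp only [List.mem_cons, List.not_mem_nil, or_false] at ha
  rcases ha with rfl | rfl | rfl
  · exact hu
  · exact hv
  · exact xor_lt8 _ hu _ hv

theorem bf_lt8 : ∀ u < 8, ∀ v < 8, bf u v = 0 := by decide +kernel

/-- commutator code -/
def cb (β : Bool) (u v : ℕ) : ℕ := if β then sc u v else 0
/-- square code -/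
def ce (η : Bool) (u : ℕ) : ℕ := if η then bc u else 0

theorem cb_lt (β : Bool) {u v : ℕ} (hu : u < 8) (hv : v < 8) : cb β u v < 64 := by
  unfold cb; split
  · exact (sg_sc hu hv).1
  · omega

theorem ce_lt (η : Bool) {u : ℕ} (hu : u < 8) : ce η u < 64 := by
  unfold ce; split
  · exact bc_lt u hu
  · omega

section G

variable {G : Type u} [Group G] {ι : Sp →* G} {t : G}

/-- `m` centralizes `A` and translates `t` by the element with code `c` -/
structure Tl (ι : Sp →* G) (t m : G) (c : ℕ) : Prop where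
  lt : c < 64
  cA : ∀ a ∈ A, m * ι a = ι a * m
  tr : m * t * m⁻¹ = t * ι (ac c)

theorem al_mul (ι : Sp →* G) {c d : ℕ} (hc : c < 64) (hd : d < 64) :
    ι (ac c) * ι (ac d) = ι (ac (c ^^^ d)) := by
  rw [← map_mul, ac_mul hc hd]

theorem Tl.cc {m : G} {c : ℕ} (hm : Tl ι t m c) {d : ℕ} (hd : d < 64) :
    m * ι (ac d) = ι (ac d) * m := hm.cA _ (ac_mem hd)

theorem Tl.mul {m n : G} {c d : ℕ} (hm : Tl ι t m c) (hn : Tl ι t n d) :
    Tl ι t (m * n) (c ^^^ d) where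
  lt := xor_lt64 hm.lt hn.lt
  cA a ha := by rw [mul_assoc, hn.cA a ha, ← mul_assoc, hm.cA a ha, mul_assoc]
  tr := by
    have e : m * n * t * (m * n)⁻¹ = m * (n * t * n⁻¹) * m⁻¹ := by group
    rw [e, hn.tr, ← al_mul ι hm.lt hn.lt, ← mul_assoc t, ← hm.tr]
    calc m * (t * ι (ac d)) * m⁻¹ = m * t * m⁻¹ * (m * ι (ac d) * m⁻¹) := by group
      _ = m * t * m⁻¹ * ι (ac d) := by rw [hm.cc hn.lt, mul_inv_cancel_right]

theorem Tl.mt {m : G} {c : ℕ} (hm : Tl ι t m c) : m * t = t * ι (ac c) * m := by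
  rw [← hm.tr]; group

theorem Tl.tmt (h : Hy ι t) {m : G} {c : ℕ} (hm : Tl ι t m c) :
    t * m * t = ι (ac c) * m := by
  rw [mul_assoc, hm.mt, mul_assoc, h.ttx]

/-- two elements with the same translation differ by an element of `E3` -/
theorem Tl.diff (h : Hy ι t) {m n : G} {c : ℕ} (hm : Tl ι t m c) (hn : Tl ι t n c) :
    ∃ d < 64, n = m * ι (ac d) ∨ n = m * (t * ι (ac d)) := by
  have h1 : m⁻¹ * n * t = t * (m⁻¹ * n) := by
    have e : n * t * n⁻¹ = m * t * m⁻¹ := by rw [hm.tr, hn.tr]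
    calc m⁻¹ * n * t = m⁻¹ * (n * t * n⁻¹) * n := by group
      _ = t * (m⁻¹ * n) := by rw [e]; group
  have h2 : ∀ a ∈ Lam, m⁻¹ * n * ι a = ι a * (m⁻¹ * n) := by
    intro a ha
    have ha' := Lam_le_A ha
    calc m⁻¹ * n * ι a = m⁻¹ * (ι a * m) * (m⁻¹ * n) := by
          rw [mul_assoc, hn.cA a ha']; group
      _ = ι a * (m⁻¹ * n) := by rw [← hm.cA a ha']; group
  obtain ⟨a, ha, e⟩ := h.mem_E3.1 (h.cen_E3 h1 h2)
  obtain ⟨d, hd, rfl⟩ := A_par.1 ha
  refine ⟨d, hd, ?_⟩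
  rcases e with e | e
  · left; rw [← e]; group
  · right; rw [← e]; group

theorem sq_mul_al {m : G} {c : ℕ} (hm : Tl ι t m c) {d : ℕ} (hd : d < 64) :
    m * ι (ac d) * (m * ι (ac d)) = m * m := by
  calc m * ι (ac d) * (m * ι (ac d)) = m * (ι (ac d) * m) * ι (ac d) := by group
    _ = m * m * (ι (ac d) * ι (ac d)) := by rw [← hm.cc hd]; group
    _ = m * m := by rw [← map_mul, ac_sq hd, map_one, mul_one]

theorem sq_mul_t (h : Hy ι t) {m : G} {c : ℕ} (hm : Tl ι t m c) {d : ℕ} (hd : d < 64) :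
    m * (t * ι (ac d)) * (m * (t * ι (ac d))) = m * m * ι (ac c) := by
  calc m * (t * ι (ac d)) * (m * (t * ι (ac d)))
        = m * (t * (ι (ac d) * m) * t) * ι (ac d) := by group
    _ = m * (t * m * (ι (ac d) * t)) * ι (ac d) := by rw [← hm.cc hd]; group
    _ = m * (t * m * t) * (ι (ac d) * ι (ac d)) := by rw [← h.ct]; group
    _ = m * m * ι (ac c) := by
        rw [← map_mul, ac_sq hd, map_one, mul_one, hm.tmt h, ← hm.cc hm.lt, mul_assoc]

variable {w : ℕ → G} {η β : Bool}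

theorem w_mem {u : ℕ} (hu : u < 8) : w u ∈ MW ι w :=
  mem_sup_right (Subgroup.subset_closure ⟨u, hu, rfl⟩)

theorem A_mem {a : Sp} (ha : a ∈ A) : ι a ∈ MW ι w :=
  mem_sup_left (mem_map_of_mem ι ha)

theorem tl_w (W : Wv ι t w η β) {u : ℕ} (hu : u < 8) : Tl ι t (w u) (bc u) where
  lt := bc_lt u hu
  cA := (W.mtr _ (w_mem hu)).1
  tr := by rw [W.tr u (by omega), g_bc hu]

theorem tl_MW (W : Wv ι t w η β) {m : G} (hm : m ∈ MW ι w) : ∃ c, Tl ι t m c := by
  obtain ⟨h1, a, ha, h2⟩ := W.mtr m hm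
  obtain ⟨c, hc, rfl⟩ := A_par.1 ha
  exact ⟨c, hc, h1, h2⟩

theorem w_sq (W : Wv ι t w η β) {u : ℕ} (hu : u < 8) : w u * w u = ι (ac (ce η u)) := by
  rw [W.sq u (by omega)]
  unfold ce
  split
  · rw [g_bc hu]
  · rw [ac_zero]

theorem w_cm (W : Wv ι t w η β) {u v : ℕ} (hu : u < 8) (hv : v < 8) :
    w u * w v = ι (ac (cb β u v)) * (w v * w u) := by
  rw [W.cm u (by omega) v (by omega) (bf_lt8 u hu v hv)]
  unfold cb
  split
  · rw [(sg_sc hu hv).2]
  · rw [ac_zero]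

/-- moving `w y` through a product of three -/
theorem w3_cm (W : Wv ι t w η β) {u v x y : ℕ} (hu : u < 8) (hv : v < 8) (hx : x < 8)
    (hy : y < 8) : w u * w v * w x * w y =
      ι (ac (cb β u y ^^^ (cb β v y ^^^ cb β x y))) * (w y * (w u * w v * w x)) := by
  have h1 := cb_lt β hu hy
  have h2 := cb_lt β hv hy
  have h3 := cb_lt β hx hy
  rw [← al_mul ι h1 (xor_lt64 h2 h3), ← al_mul ι h2 h3]
  calc w u * w v * w x * w y = w u * w v * (w x * w y) := by group
    _ = w u * (w v * ι (ac (cb β x y))) * w y * w x := by rw [w_cm W hx hy]; group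
    _ = w u * ι (ac (cb β x y)) * (w v * w y) * w x := by rw [(tl_w W hv).cc h3]; group
    _ = w u * (ι (ac (cb β x y)) * ι (ac (cb β v y))) * w y * w v * w x := by
        rw [w_cm W hv hy]; group
    _ = w u * ι (ac (cb β v y ^^^ cb β x y)) * w y * w v * w x := by
        rw [al_mul ι h3 h2, Nat.xor_comm]
    _ = ι (ac (cb β v y ^^^ cb β x y)) * (w u * w y) * w v * w x := by
        rw [(tl_w W hu).cc (xor_lt64 h2 h3)]; group
    _ = ι (ac (cb β v y ^^^ cb β x y)) * ι (ac (cb β u y)) * (w y * (w u * w v * w x)) := by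
        rw [w_cm W hu hy]; group
    _ = _ := by
        rw [al_mul ι (xor_lt64 h2 h3) h1, al_mul ι h2 h3, al_mul ι h1 (xor_lt64 h2 h3),
          Nat.xor_comm]

/-- the square of a product of three -/
theorem w3_sq (W : Wv ι t w η β) {u v x : ℕ} (hu : u < 8) (hv : v < 8) (hx : x < 8) :
    w u * w v * w x * (w u * w v * w x) =
      ι (ac ((cb β x u ^^^ cb β v u) ^^^ ce η u ^^^ cb β x v ^^^ ce η v ^^^ ce η x)) := by
  have h1 := cb_lt β hx hu
  have h2 := cb_lt β hv hu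
  have h3 := cb_lt β hx hv
  have h4 := ce_lt η hu
  have h5 := ce_lt η hv
  have h6 := ce_lt η hx
  have h12 := xor_lt64 h1 h2
  have h124 := xor_lt64 h12 h4
  have h1243 := xor_lt64 h124 h3
  rw [← al_mul ι (xor_lt64 h1243 h5) h6, ← al_mul ι h1243 h5, ← al_mul ι h124 h3,
    ← al_mul ι h12 h4, ← w_sq W hu, ← w_sq W hv, ← w_sq W hx]
  calc w u * w v * w x * (w u * w v * w x) = w u * w v * (w x * w u) * w v * w x := by group
    _ = w u * (w v * ι (ac (cb β x u))) * w u * w x * w v * w x := by rw [w_cm W hx hu]; group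
    _ = w u * ι (ac (cb β x u)) * (w v * w u) * w x * w v * w x := by
        rw [(tl_w W hv).cc h1]; group
    _ = w u * (ι (ac (cb β x u)) * ι (ac (cb β v u))) * w u * w v * (w x * w v) * w x := by
        rw [w_cm W hv hu]; group
    _ = w u * ι (ac (cb β x u ^^^ cb β v u)) * w u * (w v * ι (ac (cb β x v))) * w v * w x *
          w x := by rw [al_mul ι h1 h2, w_cm W hx hv]; group
    _ = _ := by rw [(tl_w W hu).cc h12, (tl_w W hv).cc h3]; group

theorem cen_MW {s : G} (hA : ∀ a ∈ A, s * ι a = ι a * s)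
    (hw : ∀ y < 8, s * w y = w y * s) {m : G} (hm : m ∈ MW ι w) : m * s = s * m := by
  have : MW ι w ≤ centralizer {s} := by
    refine sup_le ?_ ?_
    · rintro _ ⟨a, ha, rfl⟩
      rw [mem_centralizer_singleton_iff]
      exact (hA a ha).symm
    · rw [Subgroup.closure_le]
      rintro _ ⟨y, hy, rfl⟩
      rw [SetLike.mem_coe, mem_centralizer_singleton_iff]
      exact (hw y hy).symm
  have h2 := this hm
  rw [mem_centralizer_singleton_iff] at h2
  exact h2

theorem dec_cm : ∀ β : Bool, ∀ y < 8, cb β 1 y ^^^ (cb β 2 y ^^^ cb β 3 y) = 0 ∧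
    cb β 1 y ^^^ (cb β 4 y ^^^ cb β 5 y) = 0 ∧ cb β 2 y ^^^ (cb β 4 y ^^^ cb β 6 y) = 0 := by
  decide +kernel

theorem dec_r12 : ∀ c < 64, cjc (wd [1, 16, 1 ^^^ 16]) c ^^^ 8 ≠ c := by decide +kernel

end G

theorem wc : WCStmt.{u} := by
  intro _ G _ _ ι t h s al w η β S hD W
  have T0 : Tl ι t (w 1 * w 2 * w 3) 8 :=
    ((tl_w W (u := 1) (by omega)).mul (tl_w W (u := 2) (by omega))).mul (tl_w W (u := 3) (by omega))
  have Ts : Tl ι t s 8 := ⟨by omega, S.cA, by rw [S.tr, a12_ac]⟩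
  obtain ⟨d, hd, hs⟩ := T0.diff h Ts
  have ss0 := w3_sq W (u := 1) (v := 2) (x := 3) (by omega) (by omega) (by omega)
  have hr : ∀ a ∈ [1, 16, 1 ^^^ 16], a < 64 := by decide
  have r1 : act r12 1 = 1 := by unfold r12 sg; rw [act_wd hr (by omega)]; decide +kernel
  have r2 : act r12 2 = 3 := by unfold r12 sg; rw [act_wd hr (by omega)]; decide +kernel
  have r3 : act r12 3 = 2 := by unfold r12 sg; rw [act_wd hr (by omega)]; decide +kernel
  have rr : r12 * r12 = 1 := V0_sq (sg_mem_V0 (by omega) (by decide +kernel))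
  have rinv : r12⁻¹ = r12 := inv_eq_of_mul_eq_one_right rr
  have rs0 : ι r12 * (w 1 * w 2 * w 3) * (ι r12)⁻¹ = w 1 * w 2 * w 3 * ι (ac (cb β 3 2)) := by
    have hlt := cb_lt β (u := 3) (v := 2) (by omega) (by omega)
    calc ι r12 * (w 1 * w 2 * w 3) * (ι r12)⁻¹ = (ι r12 * w 1 * (ι r12)⁻¹) *
          ((ι r12 * w 2 * (ι r12)⁻¹) * (ι r12 * w 3 * (ι r12)⁻¹)) := by group
      _ = w 1 * (w 3 * w 2) := by
          rw [W.eqv _ 1 (by omega), W.eqv _ 2 (by omega), W.eqv _ 3 (by omega), r1, r2, r3]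
      _ = _ := by
          rw [w_cm W (u := 3) (v := 2) (by omega) (by omega), T0.cc hlt, ← mul_assoc,
            (tl_w W (u := 1) (by omega)).cc hlt]
          group
  have rs : ι r12 * s * (ι r12)⁻¹ = s * ι (ac (if al then 8 else 0)) := by
    have e := S.r
    have hlt : (if al then 8 else 0) < 64 := by split <;> omega
    have e2 : ι (if al then r12 * a12 else r12) = ι r12 * ι (ac (if al then 8 else 0)) := by
      cases al
      · simp [ac_zero]
      · simp [a12_ac]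
    rw [e2] at e
    rw [Ts.cc hlt, ← map_inv, rinv]
    calc ι r12 * s * ι r12 = ι r12 * (s * ι r12 * s⁻¹) * s := by group
      _ = ι r12 * ι r12 * ι (ac (if al then 8 else 0)) * s := by rw [e]; group
      _ = _ := by rw [← map_mul, rr, map_one, one_mul]
  obtain ⟨hlt, hcj⟩ := conj_ac_wd (l := [1, 16, 1 ^^^ 16]) (by decide +kernel) hd
  have hcj' : ι r12 * ι (ac d) * (ι r12)⁻¹ = ι (ac (cjc (wd [1, 16, 1 ^^^ 16]) d)) := by
    rw [← map_inv, ← map_mul, ← map_mul]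
    exact congrArg ι hcj
  have hb := cb_lt β (u := 3) (v := 2) (by omega) (by omega)
  have hal : (if al then 8 else 0) < 64 := by split <;> omega
  have key : cb β 3 2 ^^^ cjc (wd [1, 16, 1 ^^^ 16]) d = d ^^^ (if al then 8 else 0) := by
    apply ac_inj (xor_lt64 hb hlt) (xor_lt64 hd hal)
    apply h.inj
    rw [← al_mul ι hb hlt, ← al_mul ι hd hal]
    rcases hs with hs | hs
    · rw [hs] at rs
      have e : ι r12 * (w 1 * w 2 * w 3 * ι (ac d)) * (ι r12)⁻¹ =
          (ι r12 * (w 1 * w 2 * w 3) * (ι r12)⁻¹) * (ι r12 * ι (ac d) * (ι r12)⁻¹) := by group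
      rw [e, rs0, hcj', mul_assoc, mul_assoc (w 1 * w 2 * w 3)] at rs
      exact mul_left_cancel rs
    · rw [hs] at rs
      have e : ι r12 * (w 1 * w 2 * w 3 * (t * ι (ac d))) * (ι r12)⁻¹ =
          (ι r12 * (w 1 * w 2 * w 3) * (ι r12)⁻¹) * ((ι r12 * t * (ι r12)⁻¹) *
            (ι r12 * ι (ac d) * (ι r12)⁻¹)) := by group
      rw [e, rs0, hcj', h.conj_t, mul_assoc, mul_assoc (w 1 * w 2 * w 3), ← mul_assoc (ι _),
        ← h.ct, mul_assoc t, mul_assoc t] at rs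
      exact mul_left_cancel (mul_left_cancel rs)
  have hβ : β = al := by
    have h8 := dec_r12 d hd
    have c8 : cb true 3 2 = 8 := by decide +kernel
    cases β <;> cases al
    · rfl
    · exfalso
      apply h8
      simp only [cb, Bool.false_eq_true, if_false, Nat.zero_xor, if_true] at key
      rw [key, Nat.xor_assoc, Nat.xor_self, Nat.xor_zero]
    · exfalso
      apply h8
      simp only [c8, Bool.false_eq_true, if_false, Nat.xor_zero] at key
      rw [Nat.xor_comm, key]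
    · rfl
  refine ⟨hβ, fun hal' => ?_⟩
  subst hal'
  subst hβ
  cases η
  swap
  · rfl
  exfalso
  have c8 : (cb true 3 1 ^^^ cb true 2 1) ^^^ ce false 1 ^^^ cb true 3 2 ^^^ ce false 2 ^^^
      ce false 3 = 8 := by decide +kernel
  rw [c8] at ss0
  rcases hs with hs | hs
  · have e := S.ss
    rw [hs, sq_mul_al T0 hd, ss0, ← map_one ι, ← ac_zero] at e
    exact absurd (ac_inj (by omega) (by omega) (h.inj e)) (by omega)
  have hw : ∀ a ∈ [2, 32, 34, 4, 16, 20, 2, 32, 34], a < 64 := by decide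
  have q1 : act w23 1 = 1 := by unfold w23; rw [act_wd hw (by omega)]; decide +kernel
  have q2 : act w23 2 = 4 := by unfold w23; rw [act_wd hw (by omega)]; decide +kernel
  have q3 : act w23 3 = 5 := by unfold w23; rw [act_wd hw (by omega)]; decide +kernel
  obtain ⟨d', hd', e'⟩ := A_par.1 (P3_conj_A w23_P3 (ac_mem hd))
  have T1 : Tl ι t (w 1 * w 4 * w 5) 16 :=
    ((tl_w W (u := 1) (by omega)).mul (tl_w W (u := 4) (by omega))).mul (tl_w W (u := 5) (by omega))
  have hs' : ι w23 * s * (ι w23)⁻¹ = w 1 * w 4 * w 5 * (t * ι (ac d')) := by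
    rw [hs, ← e', ← h.conj_tl]
    calc ι w23 * (w 1 * w 2 * w 3 * (t * ι (ac d))) * (ι w23)⁻¹ =
        (ι w23 * w 1 * (ι w23)⁻¹) * (ι w23 * w 2 * (ι w23)⁻¹) * (ι w23 * w 3 * (ι w23)⁻¹) *
          (ι w23 * (t * ι (ac d)) * (ι w23)⁻¹) := by group
      _ = _ := by
        rw [W.eqv _ 1 (by omega), W.eqv _ 2 (by omega), W.eqv _ 3 (by omega), q1, q2, q3]
  have hc : w 1 * w 4 * w 5 * (w 1 * w 2 * w 3) = w 1 * w 2 * w 3 * (w 1 * w 4 * w 5) := by
    refine cen_MW T0.cA (fun y hy => ?_)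
      (mul_mem (mul_mem (w_mem (by omega)) (w_mem (by omega))) (w_mem (by omega)))
    rw [w3_cm W (by omega) (by omega) (by omega) hy, (dec_cm true y hy).1, ac_zero, map_one,
      one_mul]
  have hD' := hD rfl
  unfold Duad at hD'
  rw [hs', hs] at hD'
  generalize w 1 * w 2 * w 3 = x at *
  generalize w 1 * w 4 * w 5 = y at *
  have e1 : x * (t * ι (ac d)) * (y * (t * ι (ac d'))) =
      x * y * (ι (ac 16) * (ι (ac d) * ι (ac d'))) := by
    calc x * (t * ι (ac d)) * (y * (t * ι (ac d'))) = x * (t * (ι (ac d) * y) * t) * ι (ac d') := by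
          group
      _ = x * (t * y * (ι (ac d) * t)) * ι (ac d') := by rw [← T1.cc hd]; group
      _ = x * (t * y * t) * (ι (ac d) * ι (ac d')) := by rw [← h.ct]; group
      _ = _ := by rw [T1.tmt h, ← T1.cc (by omega)]; group
  have e2 : y * (t * ι (ac d')) * (x * (t * ι (ac d))) =
      x * y * (ι (ac 8) * (ι (ac d) * ι (ac d'))) := by
    calc y * (t * ι (ac d')) * (x * (t * ι (ac d))) = y * (t * (ι (ac d') * x) * t) * ι (ac d) := by
          group
      _ = y * (t * x * (ι (ac d') * t)) * ι (ac d) := by rw [← T0.cc hd']; group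
      _ = y * (t * x * t) * (ι (ac d') * ι (ac d)) := by rw [← h.ct]; group
      _ = y * x * (ι (ac 8) * (ι (ac d') * ι (ac d))) := by
          rw [T0.tmt h, ← T0.cc (by omega)]; group
      _ = _ := by rw [hc, al_mul ι hd hd', al_mul ι hd' hd, Nat.xor_comm]
  rw [e1, e2] at hD'
  have e3 := mul_right_cancel (mul_left_cancel hD')
  exact absurd (ac_inj (by omega) (by omega) (h.inj e3)) (by omega)

section K

variable {G : Type u} [Group G] {ι : Sp →* G} {t : G} {w : ℕ → G}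

theorem s_gen (W : Wv ι t w true true) {u v x c : ℕ} (hu : u < 8) (hv : v < 8) (hx : x < 8)
    (h1 : bc u ^^^ bc v ^^^ bc x = c)
    (h2 : ∀ y < 8, cb true u y ^^^ (cb true v y ^^^ cb true x y) = 0)
    (h3 : (cb true x u ^^^ cb true v u) ^^^ ce true u ^^^ cb true x v ^^^ ce true v ^^^
      ce true x = 0) :
    ∃ s ∈ MW ι w, (∀ m ∈ MW ι w, m * s = s * m) ∧ s * s = 1 ∧ s * t * s⁻¹ = t * ι (ac c) := by
  have T := ((tl_w W hu).mul (tl_w W hv)).mul (tl_w W hx)
  refine ⟨w u * w v * w x, mul_mem (mul_mem (w_mem hu) (w_mem hv)) (w_mem hx), fun m hm => ?_,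
    ?_, ?_⟩
  · refine cen_MW T.cA (fun y hy => ?_) hm
    rw [w3_cm W hu hv hx hy, h2 y hy, ac_zero, map_one, one_mul]
  · rw [w3_sq W hu hv hx, h3, ac_zero, map_one]
  · rw [T.tr, h1]

theorem s_Lam (W : Wv ι t w true true) {γ : Sp} (hγ : γ ∈ Lam) :
    ∃ s ∈ MW ι w, (∀ m ∈ MW ι w, m * s = s * m) ∧ s * s = 1 ∧ s * t * s⁻¹ = t * ι γ := by
  unfold Lam at hγ
  induction hγ using Subgroup.closure_induction with
  | mem x hx =>
    simp only [Set.mem_insert_iff, Set.mem_singleton_iff] at hx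
    rcases hx with rfl | rfl | rfl
    · rw [a12_ac]
      exact s_gen W (u := 1) (v := 2) (x := 3) (by omega) (by omega) (by omega) (by decide +kernel)
        (fun y hy => (dec_cm true y hy).1) (by decide +kernel)
    · rw [a13_ac]
      exact s_gen W (u := 1) (v := 4) (x := 5) (by omega) (by omega) (by omega) (by decide +kernel)
        (fun y hy => (dec_cm true y hy).2.1) (by decide +kernel)
    · rw [a23_ac]
      exact s_gen W (u := 2) (v := 4) (x := 6) (by omega) (by omega) (by omega) (by decide +kernel)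
        (fun y hy => (dec_cm true y hy).2.2) (by decide +kernel)
  | one => exact ⟨1, one_mem _, fun m _ => by simp, by simp, by simp⟩
  | mul x y hx hy ihx ihy =>
    obtain ⟨s, hs, c1, q1, t1⟩ := ihx
    obtain ⟨s', hs', c2, q2, t2⟩ := ihy
    refine ⟨s * s', mul_mem hs hs', fun m hm => ?_, ?_, ?_⟩
    · rw [← mul_assoc, c1 m hm, mul_assoc, c2 m hm, mul_assoc]
    · calc s * s' * (s * s') = s * (s' * s) * s' := by group
        _ = (s * s) * (s' * s') := by rw [c1 s' hs']; group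
        _ = 1 := by rw [q1, q2, one_mul]
    · have hy' : y ∈ A := Lam_le_A hy
      calc s * s' * t * (s * s')⁻¹ = s * (s' * t * s'⁻¹) * s⁻¹ := by group
        _ = s * t * s⁻¹ * (s * ι y * s⁻¹) := by rw [t2]; group
        _ = _ := by rw [t1, (W.mtr s hs).1 y hy', mul_inv_cancel_right, map_mul, mul_assoc]
  | inv x hx ih =>
    have hx' : x ∈ A := Lam_le_A hx
    rw [A_inv hx']
    exact ih

theorem dec_mod : ∀ c < 64, (c ^^^ bc (c % 8)) % 8 = 0 ∧ bc (c % 8) ^^^ (c ^^^ bc (c % 8)) = c := by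
  decide +kernel

theorem dec_mod2 : ∀ c < 64, ∀ u < 8, (c ^^^ (bc (c % 8) ^^^ cb true (c % 8) u)) % 8 = 0 ∧
    (bc (c % 8) ^^^ cb true (c % 8) u) ^^^ (c ^^^ (bc (c % 8) ^^^ cb true (c % 8) u)) = c := by
  decide +kernel

theorem dec_ce : ∀ u < 8, ce true u = 0 → u = 0 := by decide +kernel

end K

theorem k11 : K11Stmt.{u} := by
  intro _ G _ _ ι t h w M0 W M
  have cA0 : ∀ n ∈ M0, ∀ a ∈ A, n * ι a = ι a * n := fun n hn a ha =>
    h.MV_comm M hn (M.le (mem_map_of_mem ι ha))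
  have base : ∀ n ∈ M0, n ∈ MW ι w ∧ ∀ m ∈ MW ι w, m * n = n * m := by
    intro n hn
    obtain ⟨γ, hγ, e⟩ := M.tr n hn
    obtain ⟨s, hs, c1, q1, t1⟩ := s_Lam W hγ
    obtain ⟨c, hc, rfl⟩ := A_par.1 (Lam_le_A hγ)
    have Ts : Tl ι t s c := ⟨hc, (W.mtr s hs).1, t1⟩
    have Tn : Tl ι t n c := ⟨hc, cA0 n hn, e⟩
    obtain ⟨d, hd, e1 | e1⟩ := Ts.diff h Tn
    · rw [e1]
      refine ⟨mul_mem hs (A_mem (ac_mem hd)), fun m hm => ?_⟩
      rw [← mul_assoc, c1 m hm, mul_assoc, (W.mtr m hm).1 _ (ac_mem hd), mul_assoc]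
    · have e2 := M.ea n hn
      rw [e1, sq_mul_t h Ts hd, q1, one_mul] at e2
      rw [e2, mul_one] at e
      obtain ⟨a, ha, rfl⟩ := M.ker n hn (mul_inv_eq_iff_eq_mul.1 e)
      exact ⟨A_mem ha, fun m hm => (W.mtr m hm).1 a ha⟩
  have sur0 : ∀ c < 64, c % 8 = 0 → ∃ n ∈ M0, Tl ι t n c := by
    intro c hc h8
    obtain ⟨n, hn, e⟩ := M.sur _ ((ac_mem_Lam hc).2 h8)
    exact ⟨n, hn, hc, cA0 n hn, e⟩
  have nf : ∀ m ∈ MW ι w, ∃ u < 8, ∃ n ∈ M0, m = w u * n := by
    intro m hm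
    obtain ⟨c, Tm⟩ := tl_MW W hm
    have hu : c % 8 < 8 := Nat.mod_lt _ (by omega)
    obtain ⟨d1, d2⟩ := dec_mod c Tm.lt
    obtain ⟨n, hn, Tn⟩ := sur0 _ (xor_lt64 Tm.lt (bc_lt _ hu)) d1
    have T2 := (tl_w W hu).mul Tn
    rw [d2] at T2
    have hk : (w (c % 8) * n)⁻¹ * m ∈ MW ι w :=
      mul_mem (inv_mem (mul_mem (w_mem hu) (base n hn).1)) hm
    have hk2 : (w (c % 8) * n)⁻¹ * m * t = t * ((w (c % 8) * n)⁻¹ * m) := by
      have e : m * t * m⁻¹ = w (c % 8) * n * t * (w (c % 8) * n)⁻¹ := by rw [Tm.tr, T2.tr]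
      calc (w (c % 8) * n)⁻¹ * m * t = (w (c % 8) * n)⁻¹ * (m * t * m⁻¹) * m := by group
        _ = _ := by rw [e]; group
    refine ⟨c % 8, hu, n * ((w (c % 8) * n)⁻¹ * m), mul_mem hn (M.le (W.ker _ hk hk2)), ?_⟩
    group
  have sqn : ∀ u < 8, ∀ n ∈ M0, w u * n * (w u * n) = ι (ac (ce true u)) := by
    intro u hu n hn
    calc w u * n * (w u * n) = w u * (n * w u) * n := by group
      _ = (w u * w u) * (n * n) := by rw [← (base n hn).2 _ (w_mem hu)]; group
      _ = _ := by rw [M.ea n hn, mul_one, w_sq W hu]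
  refine ⟨fun n hn => (base n hn).1, fun m hm n hn => (base n hn).2 m hm, nf, ?_, ?_, ?_, ?_⟩
  · rintro n h1 ⟨a, ha, h2⟩
    obtain ⟨m, hm, e⟩ := W.sur a ha
    obtain ⟨c, hc, rfl⟩ := A_par.1 ha
    have Tm : Tl ι t m c := ⟨hc, (W.mtr m hm).1, e⟩
    have Tn : Tl ι t n c := ⟨hc, h1, h2⟩
    obtain ⟨d, hd, e1 | e1⟩ := Tm.diff h Tn
    · left
      rw [e1]
      exact mul_mem hm (A_mem (ac_mem hd))
    · right
      have e2 : t * n = ι (ac c) * m * ι (ac d) := by rw [e1, ← Tm.tmt h]; group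
      rw [e2]
      exact mul_mem (mul_mem (A_mem (ac_mem hc)) hm) (A_mem (ac_mem hd))
  · intro m hm e
    obtain ⟨u, hu, n, hn, rfl⟩ := nf m hm
    rw [sqn u hu n hn, ← map_one ι, ← ac_zero] at e
    have hu0 := dec_ce u hu (ac_inj (ce_lt _ hu) (by omega) (h.inj e))
    rw [hu0, W.w0, one_mul]
    exact hn
  · intro m hm e
    obtain ⟨u, hu, n, hn, rfl⟩ := nf m hm
    obtain ⟨c, Tn⟩ := tl_MW W (base n hn).1
    have T2 := (tl_w W hu).mul Tn
    have e2 : t * (w u * n) * (t * (w u * n)) = ι (ac c) := by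
      calc t * (w u * n) * (t * (w u * n)) = (t * (w u * n) * t) * (w u * n) := by group
        _ = ι (ac (bc u ^^^ c)) * (w u * n * (w u * n)) := by rw [T2.tmt h]; group
        _ = _ := by
          rw [sqn u hu n hn, al_mul ι T2.lt (ce_lt _ hu)]
          congr 2
          show bc u ^^^ c ^^^ bc u = c
          rw [Nat.xor_comm (bc u), Nat.xor_assoc, Nat.xor_self, Nat.xor_zero]
    rw [e2] at e
    have e3 := Tn.tr
    rw [e, mul_one] at e3
    obtain ⟨a, ha, rfl⟩ := M.ker n hn (mul_inv_eq_iff_eq_mul.1 e3)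
    exact ⟨u, hu, a, ha, rfl⟩
  · intro u hu a ha
    obtain ⟨c, hc, rfl⟩ := A_par.1 ha
    have hv : c % 8 < 8 := Nat.mod_lt _ (by omega)
    obtain ⟨d1, d2⟩ := dec_mod2 c hc u hu
    have l1 := bc_lt _ hv
    have l2 := cb_lt true hv hu
    have l3 := xor_lt64 hc (xor_lt64 l1 l2)
    obtain ⟨n, hn, Tn⟩ := sur0 _ l3 d1
    refine ⟨w (c % 8) * n, mul_mem (w_mem hv) (base n hn).1, ?_⟩
    have Tv := tl_w W hv
    have Tu := tl_w W hu
    generalize c ^^^ (bc (c % 8) ^^^ cb true (c % 8) u) = e at *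
    generalize c % 8 = v at *
    calc w v * n * (t * w u) * (w v * n)⁻¹
        = w v * ((n * t * n⁻¹) * (n * w u) * n⁻¹) * (w v)⁻¹ := by group
      _ = w v * (t * ι (ac e) * w u) * (w v)⁻¹ := by
          rw [Tn.tr, ← (base n hn).2 _ (w_mem hu)]; group
      _ = (w v * t * (w v)⁻¹) * (w v * ι (ac e)) * w u * (w v)⁻¹ := by group
      _ = t * ι (ac (bc v)) * ι (ac e) * (w v * w u) * (w v)⁻¹ := by
          rw [Tv.tr, Tv.cc l3]; group
      _ = t * (ι (ac (bc v)) * ι (ac e) * ι (ac (cb true v u))) * w u := by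
          rw [w_cm W hv hu]; group
      _ = t * (ι (ac c) * w u) := by
          rw [al_mul ι l1 l3, al_mul ι (xor_lt64 l1 l3) l2, mul_assoc]
          congr 4
          rw [← d2, Nat.xor_assoc, Nat.xor_assoc, Nat.xor_comm e]
      _ = _ := by rw [← Tu.cc hc, mul_assoc]

end Cfsg.Agent.H74.S6W
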