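import Mathlib
import Cfsg.Agent.H41.Pack

/-!
# Labelled permutations: actions on `Fin n × ZMod 3` that invert the labels
-/

set_option autoImplicit false

namespace Cfsg.Agent.H74.Lab3

open Cfsg.Agent.H41 Cfsg.Agent.H42 Equiv

variable {n : ℕ}

/-- The two bit sets `A`, `B` describe the function `f`. -/
def Lab (n A B : ℕ) (f : Fin n → ZMod 3) : Prop :=
  ∀ p : Fin n, A.testBit p = decide (f p = 1) ∧ B.testBit p = decide (f p = 2)

/-- The function described by two bit sets. -/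
def lab (n A B : ℕ) (p : Fin n) : ZMod 3 := if A.testBit p then 1 else if B.testBit p then 2 else 0

theorem lab_spec {A B : ℕ} (h : Nat.beq (Nat.land A B) 0 = true) : Lab n A B (lab n A B) := fun p => by
  have h1 : (A &&& B).testBit p = false := by rw [show A &&& B = 0 from beq_iff.1 h, Nat.zero_testBit]
  rw [Nat.testBit_and] at h1
  unfold lab
  revert h1
  cases A.testBit p <;> cases B.testBit p <;> decide

/-- A labelled permutation. -/
def lp (π : Perm (Fin n)) (c : Fin n → ZMod 3) : Perm (Fin n × ZMod 3) where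
  toFun x := (π x.1, c x.1 - x.2)
  invFun x := (π⁻¹ x.1, c (π⁻¹ x.1) - x.2)
  left_inv x := by simp
  right_inv x := by simp

/-- The shift of the labels. -/
def sh (n : ℕ) : Perm (Fin n × ZMod 3) := Equiv.prodCongr (Equiv.refl _) (Equiv.addLeft 1)

theorem sh_apply (p : Fin n) (t : ZMod 3) : sh n (p, t) = (p, 1 + t) := rfl

theorem sh_pow : sh n ^ 3 = 1 := by
  ext1 ⟨p, t⟩
  rw [pow_three, Perm.mul_apply, Perm.mul_apply, sh_apply, sh_apply, sh_apply, Perm.one_apply,
    (by decide : ∀ t : ZMod 3, 1 + (1 + (1 + t)) = t)]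

theorem sh_ne_one (h : 0 < n) : sh n ≠ 1 := fun e => by
  have := congrArg (fun g : Perm (Fin n × ZMod 3) => (g (⟨0, h⟩, 0)).2) e
  exact absurd this (by rw [sh_apply]; change ¬ ((1 : ZMod 3) + 0 = 0); decide)

theorem lp_sh (π : Perm (Fin n)) (c : Fin n → ZMod 3) : lp π c * sh n = (sh n)⁻¹ * lp π c := by
  rw [eq_inv_mul_iff_mul_eq]
  ext1 ⟨p, t⟩
  change (π p, 1 + (c p - (1 + t))) = (π p, c p - t)
  congr 1
  ring

theorem bits : ∀ x y : ZMod 3,
    ((decide (x = 1) || decide (y = 1)) ^^ (decide (x = 2) || decide (y = 2)) ^^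
      (decide (x = 2) || decide (y = 1))) = decide (x - y = 1) ∧
    ((decide (x = 1) || decide (y = 1)) ^^ (decide (x = 2) || decide (y = 2)) ^^
      (decide (x = 1) || decide (y = 2))) = decide (x - y = 2) := by decide

/-- One letter. -/
noncomputable def stp (ap : ℕ → ℕ → ℕ) (cA cB : ℕ → ℕ) (i A B : ℕ) (k : ℕ → ℕ → Bool) : Bool :=
  force (Nat.xor (Nat.lor (cA i) A) (Nat.lor (cB i) B)) fun t =>
    force (ap i (Nat.xor t (Nat.lor (cB i) A))) fun A' =>
      force (ap i (Nat.xor t (Nat.lor (cA i) B))) fun B' => k A' B'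

/-- The labels of a word. -/
noncomputable def run (ap : ℕ → ℕ → ℕ) (cA cB : ℕ → ℕ) (w : List ℕ) : (ℕ → ℕ → Bool) → Bool :=
  List.rec (fun k => k 0 0) (fun i _ ih k => ih fun A B => stp ap cA cB i A B k) w

variable {ap : ℕ → ℕ → ℕ} {π : ℕ → Perm (Fin n)} {cA cB : ℕ → ℕ} {c : ℕ → Fin n → ZMod 3}

theorem run_spec (h : Act n ap π) {w : List ℕ} (hc : ∀ i ∈ w, Lab n (cA i) (cB i) (c i)) :
    ∀ k, run ap cA cB w k = true → ∃ A B f, k A B = true ∧ Lab n A B f ∧ ∀ p t,
      wp (fun i => lp (π i) (c i)) w (p, t) = (wp π w p, f (wp π w p) + (-1) ^ w.length * t) := by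
  induction w with
  | nil =>
    intro k hk
    exact ⟨0, 0, fun _ => 0, hk, fun p => by
      rw [Nat.zero_testBit]
      exact (by decide : false = decide ((0 : ZMod 3) = 1) ∧ false = decide ((0 : ZMod 3) = 2)),
      fun p t => by simp⟩
  | cons i w ih =>
    intro k hk
    obtain ⟨A, B, f, h1, h2, h3⟩ := ih (fun j hj => hc j (List.mem_cons_of_mem _ hj)) _ hk
    simp only [stp, force_eq] at h1
    refine ⟨_, _, fun q => c i ((π i)⁻¹ q) - f ((π i)⁻¹ q), h1, fun q => ?_, fun p t => ?_⟩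
    · rw [(h i _).testBit, (h i _).testBit]
      obtain ⟨e1, e2⟩ := h2 ((π i)⁻¹ q)
      obtain ⟨e3, e4⟩ := hc i List.mem_cons_self ((π i)⁻¹ q)
      change (((cA i ||| A) ^^^ (cB i ||| B)) ^^^ (cB i ||| A)).testBit _ = _ ∧
        (((cA i ||| A) ^^^ (cB i ||| B)) ^^^ (cA i ||| B)).testBit _ = _
      simp only [Nat.testBit_xor, Nat.testBit_or, e1, e2, e3, e4]
      exact bits _ _
    · rw [wp_cons, wp_cons, Perm.mul_apply, h3, Perm.mul_apply]
      change (π i _, c i _ - _) = _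
      simp only [Perm.coe_inv, symm_apply_apply, List.length_cons, pow_succ]
      congr 1
      ring

/-- The labels of the word vanish. -/
noncomputable def zeroB (ap : ℕ → ℕ → ℕ) (cA cB : ℕ → ℕ) (w : List ℕ) : Bool :=
  run ap cA cB w fun A B => Nat.beq (Nat.lor A B) 0

/-- The labels of the word are one. -/
noncomputable def oneB (n : ℕ) (ap : ℕ → ℕ → ℕ) (cA cB : ℕ → ℕ) (w : List ℕ) : Bool :=
  run ap cA cB w fun A _ => Nat.beq A (ones n)

theorem eq_one_of_zeroB (h : Act n ap π) {w : List ℕ} (hc : ∀ i ∈ w, Lab n (cA i) (cB i) (c i))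
    (hw : wp π w = 1) (he : w.length % 2 = 0) (H : zeroB ap cA cB w = true) :
    wp (fun i => lp (π i) (c i)) w = 1 := by
  obtain ⟨A, B, f, h1, h2, h3⟩ := run_spec h hc _ H
  ext1 ⟨p, t⟩
  have h4 : (A ||| B).testBit p = false := by rw [show A ||| B = 0 from beq_iff.1 h1, Nat.zero_testBit]
  rw [Nat.testBit_or, (h2 p).1, (h2 p).2] at h4
  have h5 : f p = 0 := by revert h4; generalize f p = x; revert x; decide
  rw [h3, hw, (Nat.even_iff.2 he).neg_one_pow, Perm.one_apply, Perm.one_apply, h5, zero_add, one_mul]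

theorem eq_sh_of_oneB (h : Act n ap π) {w : List ℕ} (hc : ∀ i ∈ w, Lab n (cA i) (cB i) (c i))
    (hw : wp π w = 1) (he : w.length % 2 = 0) (H : oneB n ap cA cB w = true) :
    wp (fun i => lp (π i) (c i)) w = sh n := by
  obtain ⟨A, B, f, h1, h2, h3⟩ := run_spec h hc _ H
  ext1 ⟨p, t⟩
  have h4 := (h2 p).1
  rw [beq_iff.1 h1, testBit_ones, decide_eq_true p.2, eq_comm, decide_eq_true_eq] at h4
  rw [h3, hw, (Nat.even_iff.2 he).neg_one_pow, Perm.one_apply, h4, one_mul, sh_apply]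

end Cfsg.Agent.H74.Lab3
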