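import Mathlib
import Cfsg.Agent.H74.Lab3
import Cfsg.Agent.H74.F24Lab
import Cfsg.Agent.H74.Cover
import Cfsg.Agent.H44.F24M

/-!
# The triple cover of `Fi24'`
-/

set_option autoImplicit false
set_option maxRecDepth 1000000
set_option Elab.async false

namespace Cfsg.Agent.H74.F24L

open Cfsg.Agent.H44 Cfsg.Agent.H44.F24 Cfsg.Agent.H42 Subgroup
open scoped commutatorElement

/-- The edges of the diagram, each with a node joined to neither end. -/
def E : List (ℕ × ℕ × ℕ) := [(11, 12, 4), (1, 11, 4), (1, 2, 4), (2, 3, 5), (3, 4, 6), (4, 5, 1),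
  (5, 6, 1), (6, 7, 1), (7, 10, 1), (4, 8, 1), (8, 9, 1)]

theorem const_of_edges {α : Type*} {f : ℕ → α} (h : ∀ e ∈ E, f e.1 = f e.2.1) :
    ∀ x ∈ List.range' 1 12, f x = f 4 := by
  simp only [E, List.forall_mem_cons] at h
  obtain ⟨h1, h2, h3, h4, h5, h6, h7, h8, h9, h10, h11, -⟩ := h
  intro x hx
  rw [List.mem_range'_1] at hx
  obtain ⟨h12, h13⟩ := hx
  interval_cases x <;> simp only [← h1, ← h2, h3, h4, h5, ← h9, ← h8, ← h7, ← h6, ← h11, ← h10]

/-- The last relator. -/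
def W17 : List ℕ := powW [4, 3, 2, 1, 11, 12, 4, 5, 6, 7, 10, 4, 8, 9] 17

theorem braid_of_sat {P : Type*} [Group P] {g : ℕ → P} {R : List (List ℕ)} (h : Sat g R) {x y : ℕ}
    (hx : [x, y, x, y, x, y] ∈ R) : (g x * g y) ^ 3 = 1 := by
  rw [← h _ hx]; simp [H44.ev, pow_three, mul_assoc]

theorem ev_const {P : Type*} [Group P] (c : P) (w : List ℕ) : H44.ev (fun _ => c) w = c ^ w.length := by
  simp [H44.ev]

theorem comm_edge {P : Type*} [Group P] {x y k : P} (hx : x * x = 1) (hy : y * y = 1)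
    (h : (x * y) ^ 3 = 1) (h1 : Commute k x) (h2 : Commute k y) : ⁅x * k, x * y⁆ = x⁻¹ * y := by
  have h3 : x * (x * y) * x⁻¹ = (x * y)⁻¹ := by
    rw [← mul_assoc, hx, one_mul, mul_inv_rev, inv_eq_of_mul_eq_one_right hy]
  rw [pow_three, mul_eq_one_iff_eq_inv] at h
  calc ⁅x * k, x * y⁆ = x * (k * (x * y) * k⁻¹) * x⁻¹ * (x * y)⁻¹ := by rw [commutatorElement_def]; group
    _ = (x * y * (x * y))⁻¹ := by rw [(h1.mul_right h2).eq, mul_inv_cancel_right, h3, ← mul_inv_rev]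
    _ = _ := by rw [← h, inv_eq_of_mul_eq_one_right hx]

theorem mElt_of_gen {D : Type} [Group D] {d : ℕ → D} (htop : gen d 12 = ⊤)
    (ρ : D →* Cfsg.Spor.Fi24) (hρ : ∀ x, 1 ≤ x ∧ x ≤ 12 → ρ (d x) = Fi24.gm x)
    (hR : Sat d Fi24.Rm.dropLast) {z : D} (hz : H44.ev d W17 = z)
    (hi : ∀ x, 1 ≤ x ∧ x ≤ 12 → d x * z * (d x)⁻¹ = z⁻¹) (h3 : 3 ∣ orderOf z) :
    MElt Cfsg.Spor.Fi24' 3 := by
  have : Finite Cfsg.Spor.Fi24 := Nat.finite_of_card_ne_zero (by rw [F24.card]; norm_num)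
  have hN : (zpowers z).Normal := by
    rw [← normalizer_eq_top_iff, eq_top_iff, ← htop, gen_le]
    intro x h1 h2
    rw [mem_normalizer_iff_conj_image_eq, ← MulEquiv.coe_toMonoidHom, ← coe_map, MonoidHom.map_zpowers,
      MulEquiv.coe_toMonoidHom, MulAut.conj_apply, hi x ⟨h1, h2⟩, zpowers_inv]
  have hc : ∀ g ∈ commutator D, g * z * g⁻¹ = z := fun g hg => by
    have h1 := Abelianization.commutator_subset_ker
      ((IsCyclic.mulAutMulEquiv (zpowers z)).toMonoidHom.comp MulAut.conjNormal) hg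
    rw [MonoidHom.mem_ker, MonoidHom.comp_apply, MulEquiv.coe_toMonoidHom, map_eq_one_iff _
      (MulEquiv.injective _)] at h1
    exact congrArg Subtype.val (DFunLike.congr_fun h1 ⟨z, mem_zpowers z⟩)
  have hk : ρ.ker ≤ zpowers z := by
    obtain ⟨ψ, hψ⟩ := Fi24.exists_hom (g := fun x => QuotientGroup.mk' (zpowers z) (d x)) fun r hr => by
      rw [← H44.map_ev]
      rcases (by decide +kernel : ∀ r ∈ Fi24.Rm, r ∈ Fi24.Rm.dropLast ∨ r = W17) r hr with h | rfl
      · rw [hR r h, map_one]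
      · exact (QuotientGroup.eq_one_iff _).2 (hz ▸ mem_zpowers _)
    intro m hm
    have h1 : gen d 12 ≤ (ψ.comp ρ).eqLocus (QuotientGroup.mk' (zpowers z)) := gen_le.2 fun x h1 h2 => by
      change ψ (ρ (d x)) = _
      rw [hρ x ⟨h1, h2⟩, hψ x ⟨h1, h2⟩]
    have h2 : ψ (ρ m) = QuotientGroup.mk' (zpowers z) m := h1 (htop ▸ mem_top m)
    rw [MonoidHom.mem_ker.1 hm, map_one] at h2
    exact (QuotientGroup.eq_one_iff _).1 h2.symm
  have hm : (commutator D).map ρ = commutator Cfsg.Spor.Fi24 := by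
    rw [map_commutator_eq, range_eq_gen htop hρ, Fi24.top]; rfl
  let ξ : commutator D →* Cfsg.Spor.Fi24' :=
    (ρ.comp (commutator D).subtype).codRestrict _ fun x => hm ▸ mem_map_of_mem ρ x.2
  have hξ : H80.IsCentralExt ξ := by
    refine ⟨fun g => ?_, fun x hx => mem_center_iff.2 fun g => Subtype.ext ?_⟩
    · obtain ⟨x, h1, h2⟩ : g.1 ∈ (commutator D).map ρ := hm.symm ▸ g.2
      exact ⟨⟨x, h1⟩, Subtype.ext h2⟩
    · obtain ⟨k, h1⟩ := hk (show x.1 ∈ ρ.ker from congrArg Subtype.val hx)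
      have h2 : Commute (g : D) z := mul_inv_eq_iff_eq_mul.1 (hc g g.2)
      rw [coe_mul, coe_mul, ← h1]
      exact (h2.zpow_right k).eq
  have hs : ∀ x ∈ List.range' 1 12, d x * d x = 1 := fun x hx =>
    inv_of_sat hR (by revert x; decide +kernel)
  have hE : ∀ e ∈ E, e.1 ∈ List.range' 1 12 ∧ e.2.1 ∈ List.range' 1 12 ∧ e.2.2 ∈ List.range' 1 12 := by
    decide
  have hb : ∀ e ∈ E, (d e.1 * d e.2.1) ^ 3 = 1 := fun e he =>
    braid_of_sat hR (by revert e; decide +kernel)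
  have h4 := const_of_edges (f := fun x => Abelianization.of (d x)) fun e he => by
    have h1 := congrArg Abelianization.of (hb e he)
    have h2 := congrArg Abelianization.of (hs _ (hE e he).1)
    have h5 := congrArg Abelianization.of (hs _ (hE e he).2.1)
    simp only [map_mul, map_pow, map_one] at h1 h2 h5
    rw [pow_succ, mul_pow, pow_two, pow_two, h2, h5, one_mul, one_mul] at h1
    exact mul_right_cancel (h1.trans h5.symm)
  have h5 : ∀ x ∈ List.range' 1 12, ∀ y ∈ List.range' 1 12, d x * d y ∈ commutator D :=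
    fun x hx y hy => by
      rw [← Abelianization.ker_of, MonoidHom.mem_ker, map_mul, h4 x hx, h4 y hy, ← map_mul,
        hs 4 (by decide), map_one]
  have h6 := const_of_edges
    (f := fun x => QuotientGroup.mk' ⁅commutator D, commutator D⁆ (d x)) fun e he => by
      have c1 : Commute (d e.2.2) (d e.1) ∧ Commute (d e.2.2) (d e.2.1) :=
        ⟨comm_of_sat hR (by revert e; decide +kernel), comm_of_sat hR (by revert e; decide +kernel)⟩
      obtain ⟨e1, e2, e3⟩ := hE e he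
      have h7 := commutator_mem_commutator (h5 _ e1 _ e3) (h5 _ e1 _ e2)
      rw [comm_edge (hs _ e1) (hs _ e2) (hb e he) c1.1 c1.2] at h7
      exact QuotientGroup.eq.2 h7
  have h7 : z ∈ ⁅commutator D, commutator D⁆ := by
    rw [← QuotientGroup.eq_one_iff, ← hz]
    change QuotientGroup.mk' _ _ = 1
    rw [H44.map_ev, H44.ev_congr fun x hx => h6 x (by revert x; decide +kernel), ev_const,
      (by decide +kernel : W17.length = 2 * 119), pow_mul, pow_two, ← map_mul, hs 4 (by decide), map_one,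
      one_pow]
  have h8 : z ∈ commutator D := commutator_le_left _ _ h7
  refine mElt_of_ext hξ (z := ⟨z, h8⟩) ⟨Subtype.ext ?_, ?_⟩ (by rwa [Subgroup.orderOf_mk])
  · change ρ z = 1
    rw [← hz, H44.map_ev, H44.ev_congr fun x hx => hρ x (lettersIn_iff.1 (by decide +kernel) x hx)]
    exact Fi24.sat _ (by decide +kernel)
  · rw [← map_subtype_commutator] at h7
    obtain ⟨x, h9, h10⟩ := h7
    rwa [show (⟨z, h8⟩ : commutator D) = x from Subtype.ext h10.symm]

/-- The labels. -/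
noncomputable def c (i : ℕ) : Fin 306936 → ZMod 3 := Lab3.lab 306936 (cA i) (cB i)

theorem c_ok : allB (fun i => Nat.beq (Nat.land (cA i) (cB i)) 0) 12 = true := by decide +kernel

/-- The generators of the triple cover. -/
noncomputable def y : ℕ → Equiv.Perm (Fin 306936 × ZMod 3) := gq fun i => Lab3.lp (H41.N24.π i) (c i)

/-- Some relators. -/
def R0 (a b : ℕ) : List (List ℕ) := ((Fi24.Rm.drop a).take b).map (List.map (· - 1))

theorem z0 : H42.allL (Lab3.zeroB H41.N24.ap cA cB) (R0 0 30) = true := by decide +kernel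
theorem z1 : H42.allL (Lab3.zeroB H41.N24.ap cA cB) (R0 30 24) = true := by decide +kernel
theorem z2 : H42.allL (Lab3.zeroB H41.N24.ap cA cB) (R0 54 24) = true := by decide +kernel
theorem z3 : H42.allL (Lab3.zeroB H41.N24.ap cA cB) (R0 78 1) = true := by decide +kernel
theorem z4 : Lab3.oneB 306936 H41.N24.ap cA cB (W17.map (· - 1)) = true := by decide +kernel

theorem lab_ok {r : List ℕ} (hr : r ∈ Fi24.Rm) :
    (∀ i ∈ r.map (· - 1), Lab3.Lab 306936 (cA i) (cB i) (c i)) ∧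
      H41.wp H41.N24.π (r.map (· - 1)) = 1 ∧ (r.map (· - 1)).length % 2 = 0 := by
  obtain ⟨h1, h2⟩ := (by decide +kernel : ∀ r ∈ Fi24.Rm, (∀ i ∈ r.map (· - 1), i < 12) ∧
    (r.map (· - 1)).length % 2 = 0) r hr
  exact ⟨fun i hi => Lab3.lab_spec (allB_iff.1 c_ok i (h1 i hi)), (ev_gq _ _).symm.trans (sat_gq24 r hr), h2⟩

theorem sat_y : Sat y Fi24.Rm.dropLast := fun r hr => by
  obtain ⟨h1, h2, h3⟩ := lab_ok (List.mem_of_mem_dropLast hr)
  refine (ev_gq _ _).trans (Lab3.eq_one_of_zeroB H41.N24.act h1 h2 h3 ?_)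
  rcases (by decide +kernel : ∀ r ∈ Fi24.Rm.dropLast, r.map (· - 1) ∈ R0 0 30 ∨ r.map (· - 1) ∈ R0 30 24 ∨
    r.map (· - 1) ∈ R0 54 24 ∨ r.map (· - 1) ∈ R0 78 1) r hr with h | h | h | h
  exacts [H42.allL_iff.1 z0 _ h, H42.allL_iff.1 z1 _ h, H42.allL_iff.1 z2 _ h, H42.allL_iff.1 z3 _ h]

theorem ev_W17 : H44.ev y W17 = Lab3.sh 306936 := by
  obtain ⟨h1, h2, h3⟩ := lab_ok (r := W17) (by decide +kernel)
  exact (ev_gq _ _).trans (Lab3.eq_sh_of_oneB H41.N24.act h1 h2 h3 z4)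

/-- The multiplier of `Fi24'` has an element of order three. -/
theorem mElt : MElt Cfsg.Spor.Fi24' 3 := by
  let p : ℕ → Cfsg.Spor.Fi24 × Equiv.Perm (Fin 306936 × ZMod 3) := fun x => (Fi24.gm x, y x)
  have hp : ∀ w, H44.ev p w = (H44.ev Fi24.gm w, H44.ev y w) := fun w =>
    Prod.ext (H44.map_ev (MonoidHom.fst _ _) p w) (H44.map_ev (MonoidHom.snd _ _) p w)
  have hz : (H44.ev (subT (gen p 12) p) W17).1 = (1, Lab3.sh 306936) := by
    rw [ev_subT le_rfl (by decide +kernel), hp, ev_W17, Fi24.sat _ (by decide +kernel)]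
  refine mElt_of_gen (d := subT (gen p 12) p) (gen_subT rfl)
    ((MonoidHom.fst _ _).comp (gen p 12).subtype)
    (fun x hx => congrArg Prod.fst (subT_coe (mem_gen p hx.1 hx.2)))
    (sat_subT le_rfl (by decide +kernel) fun r hr => by
      rw [hp, sat_y r hr, Fi24.sat r (List.mem_of_mem_dropLast hr)]; rfl) rfl
    (fun x hx => Subtype.ext ?_) ?_
  · rw [coe_mul, coe_mul, coe_inv, coe_inv, hz, subT_coe (mem_gen p hx.1 hx.2), mul_inv_eq_iff_eq_mul]
    exact Prod.ext (by simp) (Lab3.lp_sh _ _)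
  · rw [← Subgroup.orderOf_coe, hz, Prod.orderOf_mk, orderOf_one, Nat.lcm_one_left,
      orderOf_eq_prime Lab3.sh_pow (Lab3.sh_ne_one (by norm_num))]

end Cfsg.Agent.H74.F24L
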