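import Cfsg.Agent.Lead.PcDefs
import Cfsg.Agent.S0205

/-! There is no outer involution. -/

set_option autoImplicit false

namespace Cfsg.Agent.H74.PlE4

open Subgroup Cfsg.Agent.Lead.Pc

universe u

theorem e4 : E4Stmt.{u} := by
  intro G _ _ S T S1 S2 R h _ b e
  obtain ⟨y, hy, hy'⟩ := SetLike.not_le_iff_exists.1 b.out
  have h1 : y * y = 1 := by
    have := b.sq y hy
    rwa [e, mem_bot] at this
  have h2 := (b.li y hy hy').2.1
  have h3 : orderOf y = 2 := orderOf_eq_prime (by rwa [sq]) fun e => h2 (e ▸ one_mem S)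
  have := h.sim
  have h4 : 2 ∣ Nat.card S := by
    by_contra c
    have : Group.IsSolvable S := S0205.result (Nat.not_even_iff_odd.1 fun hA => c hA.two_dvd)
    exact h.na ⟨⟨IsSimpleGroup.comm_iff_isSolvable.2 this⟩⟩
  obtain ⟨s, hs⟩ := exists_prime_orderOf_dvd_card' 2 h4
  rw [← orderOf_coe] at hs
  obtain ⟨g, hg⟩ := h.cp s y ⟨1, by rw [pow_one, ← hs, pow_orderOf_eq_one]⟩ (h3.trans hs.symm)
  have h5 := h.nm.conj_mem _ (zpowers_le.2 s.2 hg) g⁻¹
  exact h2 (by simpa [mul_assoc] using h5)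

end Cfsg.Agent.H74.PlE4
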