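import Cfsg.Agent.H74.UVDefs

/-! # Project UV: assembly -/

set_option autoImplicit false

namespace Cfsg.Agent.H74.UV

open Cfsg Module Cfsg.Agent.H31 Cfsg.Agent.H77.Sg
open Cfsg.Agent.H53.Uw (St fx Sk)

universe u

/-- the pieces -/
structure Pieces : Prop where
  zt : ZtStmt.{u}
  fn : FunStmt.{u}
  orb1 : Orb1Stmt.{u}
  lev1 : Lev1Stmt.{u}
  lev7 : Lev7Stmt.{u}
  poly : PolyStmt.{u}
  q2 : Q2Stmt.{u}
  inv : InvStmt.{u}
  nob : NobStmt.{u}
  detb : DetbStmt.{u}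
  ldiv : LdivStmt.{u}
  nrm : NrmStmt.{u}
  hom : HomStmt.{u}
  genh : GenhStmt.{u}

namespace Pieces

variable (Q : Pieces.{u})
include Q

theorem main : MainStmt.{u} := by
  intro E K _ _ _ _ _ σ B q R t G c
  have zt := Q.zt E K σ B q R t c.toKt
  obtain ⟨ψ, I, h, f⟩ := Q.fn E K σ B q R t G c zt
  have h1 : Tr1 B G := by
    rcases c.q2.eq_or_lt with rfl | h3
    · obtain ⟨rfl, rfl⟩ := c.two rfl
      exact Q.q2 E K σ B G ψ I h c f
    by_contra hn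
    have h2 := Q.orb1 E K σ B q G c.st c.rk c.le hn
    have h4 : q ≤ I.card + 1 := by have := f.orb; omega
    rcases c.hR with ⟨rfl, -⟩ | ⟨rfl, -⟩
    · obtain ⟨z, hz, e⟩ := Q.lev1 E K σ B q t G ψ I h c f h4
      exact Q.poly E K σ B q t c.toKt h3 z hz e
    · exact Q.lev7 E K σ B q t G ψ I h c f h4
  have hI : I = ∅ := Q.nob E K σ B q R t G ψ I h c f
    fun ν hν => (Q.inv E K σ B q R t G ψ I h c f h1 ν hν).1
  have hirr : ∀ ν : Ch K q, IsIrrCharacter G fun g => ze q ν g.1 := fun ν =>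
    f.irr ν (by rw [hI]; exact Finset.notMem_empty ν)
  have hn : nO G = q + 1 := by rw [f.orb, hI, Finset.card_empty]
  have hd := Q.detb E K σ B q R t G c zt hn hirr
  obtain ⟨hz, l, l1, l2, l3, l4⟩ := Q.ldiv E K σ B q R t G c zt (hirr 1)
  obtain ⟨x, hx, ho, n, hn1, hn2, hn3, hn4⟩ :=
    Q.nrm E K σ B q l G c.st c.rk l1 l2 l3 c.le l4 h1 hd
  exact Q.genh E K σ B q G c.st c.rk c.le
    (Q.hom E K σ B q l G c.st c.rk l1 l2 l3 c.le hz x hx ho n hn1 hn2 hn3 hn4) h1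

end Pieces

end Cfsg.Agent.H74.UV
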