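import Cfsg.Agent.H74.UVAsm
import Cfsg.Agent.H87.UvTen
import Cfsg.Agent.H19.UvFrob
import Cfsg.Agent.H44.UvTenb
import Cfsg.Agent.H76.UvOrby
import Cfsg.Agent.H20.UvHoma
import Cfsg.Agent.H13.UvHom
import Cfsg.Agent.H22.UvNob
import Cfsg.Agent.H72.UvGenh
import Cfsg.Agent.H56.UvNrm
import Cfsg.Agent.H26.UvTena
import Cfsg.Agent.H5.UvIrry
import Cfsg.Agent.H29.UvCnt
import Cfsg.Agent.H9.UvIsost
import Cfsg.Agent.H91.UvDetb
import Cfsg.Agent.H57.UvPerm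
import Cfsg.Agent.H16.UvFrat
import Cfsg.Agent.H86.UvOrbg
import Cfsg.Agent.H81.UvLdiv
import Cfsg.Agent.H28.UvPoly
import Cfsg.Agent.H54.UVKt
import Cfsg.Agent.H91.UvZt
import Cfsg.Agent.H59.UvUc
import Cfsg.Agent.H34.UvAb
import Cfsg.Agent.H7.UvQs
import Cfsg.Agent.H51.UvE1
import Cfsg.Agent.H55.UvSmall
import Cfsg.Agent.H43.UvCon
import Cfsg.Agent.H72.UvDec
import Cfsg.Agent.H23.UvGl1
import Cfsg.Agent.H36.UvGl2
import Cfsg.Agent.H62.UvDega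
import Cfsg.Agent.H60.UvDc
import Cfsg.Agent.H5.UvWr
import Cfsg.Agent.H26.UvOrbn
import Cfsg.Agent.H47.UvSpan
import Cfsg.Agent.H16.UvFun
import Cfsg.Agent.H23.UvOrb
import Cfsg.Agent.H12.UvLev0
import Cfsg.Agent.H12.UvLev1
import Cfsg.Agent.H76.UvLev7
import Cfsg.Agent.H57.UvQ2
import Cfsg.Agent.H9.UvInv
import Cfsg.Agent.H2.UvMax
import Cfsg.Agent.Lead.UvC4

/-! # Project UV: all the pieces -/

set_option autoImplicit false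

namespace Cfsg.Agent.H74.UV

universe u

theorem gl2S : Gl2Stmt.{u} := H36.UvGl2.gl2 H23.UvGl1.gl1

theorem dcS : DcStmt.{u} :=
  H60.UvDc.dc (H72.UvDec.dec (H43.UvCon.con H59.UvUc.uc (H55.UvSmall.small H59.UvUc.uc
    (H51.UvE1.e1 H59.UvUc.uc (H7.UvQs.qs H34.UvAb.ab))))) gl2S H62.UvDega.dega

theorem tenS : TenStmt.{u} := H87.UvTen.ten (H44.UvTenb.tenb H26.UvTena.tena)

theorem pieces : Pieces.{u} where
  zt := H91.UvZt.zt
  fn := H16.UvFun.funS dcS H5.UvWr.wr H26.UvOrbn.orbn H47.UvSpan.span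
  orb1 := H23.UvOrb.orb1
  lev1 := H12.UvLev1.lev1 H12.UvLev0.lev0
  lev7 := H76.UvLev7.lev7 H12.UvLev0.lev0
  poly := H28.UvPoly.poly tenS
  q2 := H57.UvQ2.q2
  inv := H9.UvInv.inv
  nob := H22.UvNob.nob tenS H76.UvLev7.free
  detb := H91.UvDetb.detb (H76.UvOrby.orby H5.UvIrry.irry H29.UvCnt.cnt) H86.UvOrbg.orbg
    H9.UvIsost.isost
  ldiv := H81.UvLdiv.ldiv
  nrm := H56.UvNrm.nrm H23.UvGl1.gl1 gl2S H16.UvFrat.frat
  hom := H13.UvHom.hom H23.UvGl1.gl1 (H20.UvHoma.homa H23.UvGl1.gl1)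
    (H19.UvFrob.frob H57.UvPerm.perm)
  genh := H72.UvGenh.genh

theorem c4S : C4Stmt.{u} := Lead.UvC4.c4 (H2UvMax.maxS H54.UVKt.kt pieces.main)

end Cfsg.Agent.H74.UV
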